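import Mathlib
import Cfsg.Agent.Lib.Helper55.S53Stmt

set_option autoImplicit false

namespace Cfsg.Agent.Lib.Helper4.S53Z0

universe u

private theorem mem_cent {G : Type u} [Group G] (k g : G) :
    g ∈ Subgroup.centralizer ({k} : Set G) ↔ k * g = g * k := by
  simp [Subgroup.mem_centralizer_iff]

theorem main : Cfsg.Agent.Lib.Helper55.S53Stmt.Z0.{u} := by
  classical
  intro G _ _ A X k p r hp hr hpr hko hAel hAc hkN hXc hfix
  obtain ⟨hAcomm, hAexp⟩ := hAel
  have hcomm : ∀ x ∈ A, ∀ y ∈ A, x * y = y * x := fun x hx y hy =>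
    congrArg Subtype.val (hAcomm.is_comm.comm ⟨x, hx⟩ ⟨y, hy⟩)
  have hconj : ∀ a ∈ A, k * a * k⁻¹ ∈ A := fun a ha =>
    (Subgroup.mem_normalizer_iff.mp hkN a).mp ha
  have hXA : X ≤ A := by rw [← hfix]; exact inf_le_left
  have hXC : X ≤ Subgroup.centralizer ({k} : Set G) := by rw [← hfix]; exact inf_le_right
  let f : ↥A →* ↥A :=
    { toFun := fun a => ⟨a.1 * (k * a.1⁻¹ * k⁻¹), A.mul_mem a.2 (hconj _ (A.inv_mem a.2))⟩
      map_one' := by ext; simp
      map_mul' := by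
        intro a b
        ext
        show (a.1 * b.1) * (k * (a.1 * b.1)⁻¹ * k⁻¹)
          = (a.1 * (k * a.1⁻¹ * k⁻¹)) * (b.1 * (k * b.1⁻¹ * k⁻¹))
        have e1 : k * (a.1 * b.1)⁻¹ * k⁻¹ = (k * b.1⁻¹ * k⁻¹) * (k * a.1⁻¹ * k⁻¹) := by group
        rw [e1]
        have e2 := hcomm _ (A.mul_mem b.2 (hconj _ (A.inv_mem b.2))) _ (hconj _ (A.inv_mem a.2))
        calc a.1 * b.1 * ((k * b.1⁻¹ * k⁻¹) * (k * a.1⁻¹ * k⁻¹))
            = a.1 * ((b.1 * (k * b.1⁻¹ * k⁻¹)) * (k * a.1⁻¹ * k⁻¹)) := by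
              simp only [mul_assoc]
          _ = a.1 * ((k * a.1⁻¹ * k⁻¹) * (b.1 * (k * b.1⁻¹ * k⁻¹))) := by rw [e2]
          _ = _ := by simp only [mul_assoc] }
  have hfval : ∀ a : ↥A, (f a : G) = a.1 * (k * a.1⁻¹ * k⁻¹) := fun a => rfl
  have hf1 : ∀ a : ↥A, f a = 1 ↔ k * a.1 = a.1 * k := by
    intro a
    rw [Subtype.ext_iff, hfval]
    show a.1 * (k * a.1⁻¹ * k⁻¹) = 1 ↔ _
    constructor
    · intro h
      have h2 : a.1 * k * (k * a.1)⁻¹ = 1 := by rw [← h]; group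
      exact (mul_inv_eq_one.mp h2).symm
    · intro h
      have h2 : a.1 * (k * a.1⁻¹ * k⁻¹) = a.1 * k * (k * a.1)⁻¹ := by group
      rw [h2, h]; exact mul_inv_cancel _
  have hker : f.ker = X.subgroupOf A := by
    ext a
    rw [MonoidHom.mem_ker, hf1, Subgroup.mem_subgroupOf, ← hfix, Subgroup.mem_inf, mem_cent]
    exact ⟨fun h => ⟨a.2, h⟩, fun h => h.2⟩
  have hcr : Nat.card f.range = r := by
    have h1 := Subgroup.card_mul_index f.ker
    rw [Subgroup.index_ker] at h1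
    have h2 : Nat.card f.ker = r := by
      rw [hker, Nat.card_congr (Subgroup.subgroupOfEquivOfLe hXA).toEquiv]; exact hXc
    rw [h2, hAc, pow_two] at h1
    exact Nat.eq_of_mul_eq_mul_left hr.pos h1
  have hZc : Nat.card (f.range.map A.subtype) = r := by
    rw [Subgroup.card_map_of_injective A.subtype_injective]; exact hcr
  have hZA : f.range.map A.subtype ≤ A := Subgroup.map_subtype_le _
  have hZmem : ∀ z : G, z ∈ f.range.map A.subtype ↔ ∃ a ∈ A, z = a * (k * a⁻¹ * k⁻¹) := by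
    intro z
    constructor
    · rintro ⟨y, ⟨a, rfl⟩, rfl⟩
      exact ⟨a.1, a.2, rfl⟩
    · rintro ⟨a, ha, rfl⟩
      exact ⟨f ⟨a, ha⟩, ⟨⟨a, ha⟩, rfl⟩, rfl⟩
  have hne : f.range.map A.subtype ≠ X := by
    intro hZX
    -- every `a ∈ A` commutes with `k ^ r`
    have hkr : ∀ a ∈ A, k ^ r * a = a * k ^ r := by
      intro a ha
      have hz : a * (k * a⁻¹ * k⁻¹) ∈ f.range.map A.subtype := (hZmem _).mpr ⟨a, ha, rfl⟩
      have hzX : a * (k * a⁻¹ * k⁻¹) ∈ X := hZX ▸ hz
      have hzk : k * (a * (k * a⁻¹ * k⁻¹)) = (a * (k * a⁻¹ * k⁻¹)) * k :=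
        (mem_cent k _).mp (hXC hzX)
      have hzr : (a * (k * a⁻¹ * k⁻¹)) ^ r = 1 := hAexp _ (hXA hzX)
      set z := a * (k * a⁻¹ * k⁻¹) with hzdef
      have hka : k * a = z⁻¹ * a * k := by rw [hzdef]; group
      have hkz' : k * z⁻¹ = z⁻¹ * k := by
        have : z⁻¹ * (k * z) * z⁻¹ = z⁻¹ * (z * k) * z⁻¹ := by rw [hzk]
        calc k * z⁻¹ = z⁻¹ * (z * k) * z⁻¹ := by group
          _ = z⁻¹ * (k * z) * z⁻¹ := by rw [hzk]
          _ = z⁻¹ * k := by group
      have hind : ∀ n : ℕ, k ^ n * a = (z⁻¹) ^ n * a * k ^ n := by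
        intro n
        induction n with
        | zero => simp
        | succ n ih =>
          have hkzn : k * (z⁻¹) ^ n = (z⁻¹) ^ n * k := by
            have hc : Commute k z⁻¹ := hkz'
            exact (hc.pow_right n)
          calc k ^ (n + 1) * a = k * (k ^ n * a) := by rw [pow_succ', mul_assoc]
            _ = k * ((z⁻¹) ^ n * a * k ^ n) := by rw [ih]
            _ = (k * (z⁻¹) ^ n) * a * k ^ n := by simp only [mul_assoc]
            _ = (z⁻¹) ^ n * (k * a) * k ^ n := by rw [hkzn]; simp only [mul_assoc]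
            _ = (z⁻¹) ^ n * (z⁻¹ * a * k) * k ^ n := by rw [hka]
            _ = (z⁻¹) ^ (n + 1) * a * k ^ (n + 1) := by
                rw [pow_succ, pow_succ']; simp only [mul_assoc]
      have := hind r
      rw [inv_pow, hzr, inv_one, one_mul] at this
      exact this
    -- hence `k` itself commutes with every `a ∈ A`
    have hcop : Nat.Coprime r p := by
      rw [Nat.coprime_primes hr hp]; exact fun h => hpr h.symm
    obtain ⟨m, -, hm⟩ := Nat.exists_mul_mod_eq_one_of_coprime hcop hp.one_lt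
    have hkm : (k ^ r) ^ m = k := by
      rw [← pow_mul, ← pow_mod_orderOf, hko, hm, pow_one]
    have hkA : ∀ a ∈ A, k * a = a * k := by
      intro a ha
      have hc : Commute (k ^ r) a := hkr a ha
      have := hc.pow_left m
      rw [hkm] at this
      exact this
    have hAX : A ≤ X := by
      intro a ha
      rw [← hfix]
      exact ⟨ha, (mem_cent k a).mpr (hkA a ha)⟩
    have hAeqX : A = X := le_antisymm hAX hXA
    rw [hAeqX, hXc] at hAc
    have h2 := hr.two_le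
    have : r * 1 = r * r := by rw [mul_one, ← pow_two]; exact hAc
    have := Nat.eq_of_mul_eq_mul_left hr.pos this
    omega
  have hZX : f.range.map A.subtype ⊓ X = ⊥ := by
    have hdvd : Nat.card ↥(f.range.map A.subtype ⊓ X) ∣ r := by
      rw [← hZc]; exact Subgroup.card_dvd_of_le inf_le_left
    rcases (Nat.dvd_prime hr).mp hdvd with h1 | h1
    · exact Subgroup.eq_bot_of_card_eq _ h1
    · exfalso
      have e1 : f.range.map A.subtype ⊓ X = f.range.map A.subtype :=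
        Subgroup.eq_of_le_of_card_ge inf_le_left (by rw [h1, hZc])
      have e2 : f.range.map A.subtype ⊓ X = X :=
        Subgroup.eq_of_le_of_card_ge inf_le_right (by rw [h1, hXc])
      exact hne (e1.symm.trans e2)
  have hkey : ∀ g : G, g ∈ Subgroup.normalizer (A : Set G) → g * k = k * g →
      ∀ z ∈ f.range.map A.subtype, g * z * g⁻¹ ∈ f.range.map A.subtype := by
    intro g hgN hgk z hz
    obtain ⟨a, ha, rfl⟩ := (hZmem z).mp hz
    have hga : g * a * g⁻¹ ∈ A := (Subgroup.mem_normalizer_iff.mp hgN a).mp ha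
    refine (hZmem _).mpr ⟨g * a * g⁻¹, hga, ?_⟩
    have h1 : g * k * g⁻¹ = k := by rw [hgk, mul_inv_cancel_right]
    have h2 : g * (a * (k * a⁻¹ * k⁻¹)) * g⁻¹
        = (g * a * g⁻¹) * ((g * k * g⁻¹) * (g * a * g⁻¹)⁻¹ * (g * k * g⁻¹)⁻¹) := by group
    rw [h1] at h2
    exact h2
  refine ⟨f.range.map A.subtype, hZA, hZc, hne, ?_, ?_⟩
  · refine le_bot_iff.mp ?_
    rw [← hZX]
    refine le_inf inf_le_left ?_
    rw [← hfix]
    exact le_inf (inf_le_left.trans hZA) inf_le_right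
  · intro g hgN hgk
    rw [Subgroup.mem_normalizer_iff]
    intro h
    constructor
    · exact hkey g hgN hgk h
    · intro hh
      have hg' : g⁻¹ * k = k * g⁻¹ := by
        calc g⁻¹ * k = g⁻¹ * (k * g) * g⁻¹ := by group
          _ = g⁻¹ * (g * k) * g⁻¹ := by rw [hgk]
          _ = k * g⁻¹ := by group
      have := hkey g⁻¹ (Subgroup.inv_mem _ hgN) hg' _ hh
      have e : g⁻¹ * (g * h * g⁻¹) * g⁻¹⁻¹ = h := by group
      rwa [e] at this

end Cfsg.Agent.Lib.Helper4.S53Z0
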