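import Mathlib
import Cfsg.Prelude.Def_Classical
import Cfsg.Prelude.Def_GeometricClasses
import Cfsg.Agent.Lib.Helper94.OPStmt

/-!
# Counting lemmas for members (nondegenerate `m`-spaces isometric to `W₀`) of an arbitrary
coordinate quadratic space `(ι → F, Q)`

Generic versions of `Helper4.OPFIXCONGP` (`fixcong`) and `Helper4.OPUCARDP` (`ucard`), for the
ports of S5989 to other forms (`Cfsg.quadFormMinus`, `Cfsg.quadFormOdd`, ...).  `MemG Q m W₀ W`
unfolds to `Helper94.OPStmt.Mem d F m W₀ W` for `Q = Cfsg.quadFormPlus d F`.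
-/

set_option autoImplicit false

universe u

open scoped Matrix

namespace Cfsg.Agent.Lib.Helper4.GenCount

open Cfsg.Agent.Lib.Helper37.HypStmt Cfsg.Agent.Lib.Helper94.OPStmt

/-- `W` is a nondegenerate `m`-space isometric to `W₀`, for the form `Q` on `ι → F` -/
def MemG {F : Type u} [Field F] {ι : Type} (Q : (ι → F) → F) (m : ℕ)
    (W₀ W : Submodule F (ι → F)) : Prop :=
  Module.finrank F ↥W = m ∧
    Cfsg.Geo.IsNondegenerateOn (QuadraticMap.polar Q) W ∧
    Cfsg.Geo.AreIsometricFor Q W W₀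

theorem memG_plus {F : Type u} [Field F] (d m : ℕ) (W₀ W : Submodule F (P d → F)) :
    MemG (Cfsg.quadFormPlus d F) m W₀ W ↔ Mem d F m W₀ W := Iff.rfl

/-- the linear equivalence given by an invertible matrix -/
noncomputable def glEquiv {F : Type u} [Field F] {ι : Type} [Fintype ι] [DecidableEq ι]
    (g : Matrix.GeneralLinearGroup ι F) : (ι → F) ≃ₗ[F] (ι → F) :=
  LinearEquiv.ofLinear (Matrix.toLin' (g : Matrix ι ι F))
    (Matrix.toLin' ((g⁻¹ : Matrix.GeneralLinearGroup ι F) : Matrix ι ι F))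
    (by rw [← Matrix.toLin'_mul, ← Units.val_mul, mul_inv_cancel, Units.val_one,
      Matrix.toLin'_one])
    (by rw [← Matrix.toLin'_mul, ← Units.val_mul, inv_mul_cancel, Units.val_one,
      Matrix.toLin'_one])

theorem glEquiv_coe {F : Type u} [Field F] {ι : Type} [Fintype ι] [DecidableEq ι]
    (g : Matrix.GeneralLinearGroup ι F) :
    ((glEquiv g : (ι → F) ≃ₗ[F] (ι → F)) : (ι → F) →ₗ[F] (ι → F)) =
      Matrix.toLin' (g : Matrix ι ι F) := rfl

theorem glEquiv_apply {F : Type u} [Field F] {ι : Type} [Fintype ι] [DecidableEq ι]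
    (g : Matrix.GeneralLinearGroup ι F)
    (v : ι → F) : glEquiv g v = (g : Matrix ι ι F) *ᵥ v := by
  show Matrix.toLin' (g : Matrix ι ι F) v = _
  rw [Matrix.toLin'_apply]

/-- an isometry maps members to members -/
theorem mem_map {F : Type u} [Field F] {ι : Type} [Fintype ι] [DecidableEq ι]
    (Q : (ι → F) → F) (m : ℕ) (W₀ : Submodule F (ι → F))
    (e : (ι → F) ≃ₗ[F] (ι → F))
    (he : ∀ v, Q (e v) = Q v)
    (W : Submodule F (ι → F)) (hW : MemG Q m W₀ W) :
    MemG Q m W₀ (W.map (e : (ι → F) →ₗ[F] (ι → F))) := by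
  have hpolar : ∀ a b, QuadraticMap.polar (Q) (e a) (e b) =
      QuadraticMap.polar (Q) a b := by
    intro a b
    simp only [QuadraticMap.polar, ← map_add, he]
  have hfr : Module.finrank F ↥(W.map (e : (ι → F) →ₗ[F] (ι → F))) = Module.finrank F ↥W :=
    LinearEquiv.finrank_map_eq e W
  refine ⟨hfr.trans hW.1, ?_, ?_⟩
  · rintro x ⟨w, hw, rfl⟩ hx
    have hw0 : w ≠ 0 := by
      rintro rfl
      apply hx
      simp
    obtain ⟨⟨a, ha, ha'⟩, ⟨b, hb, hb'⟩⟩ := hW.2.1 w hw hw0
    refine ⟨⟨e a, ⟨a, ha, rfl⟩, ?_⟩, ⟨e b, ⟨b, hb, rfl⟩, ?_⟩⟩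
    · show QuadraticMap.polar (Q) (e a) (e w) ≠ 0
      rw [hpolar]
      exact ha'
    · show QuadraticMap.polar (Q) (e w) (e b) ≠ 0
      rw [hpolar]
      exact hb'
  · obtain ⟨e₀, he₀⟩ := hW.2.2
    refine ⟨(e.submoduleMap W).symm.trans e₀, ?_⟩
    intro w'
    have h1 : ((e.submoduleMap W) ((e.submoduleMap W).symm w') : ι → F) =
        e (((e.submoduleMap W).symm w' : ↥W) : ι → F) := rfl
    rw [LinearEquiv.apply_symm_apply] at h1
    rw [LinearEquiv.trans_apply, he₀, h1, he]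

/-- the fixed point congruence for an isometry of order `r` acting on the members -/
theorem fixcong {F : Type u} [Field F] [Fintype F] {ι : Type} [Fintype ι] [DecidableEq ι]
    (Q : (ι → F) → F) (m : ℕ) (W₀ : Submodule F (ι → F)) (r : ℕ) [Fact r.Prime]
    (x : Matrix.GeneralLinearGroup ι F) (hx : x ∈ Cfsg.isometryGroup F Q) (hxr : x ^ r = 1) :
    Nat.card {W : Submodule F (ι → F) // MemG Q m W₀ W} ≡
      Nat.card {W : Submodule F (ι → F) //
        MemG Q m W₀ W ∧ W.map (Matrix.toLin' (x : Matrix ι ι F)) ≤ W} [MOD r] := by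
  classical
  have hiso : ∀ g : Matrix.GeneralLinearGroup ι F,
      g ∈ Cfsg.isometryGroup F (Q) →
      ∀ v, Q (glEquiv g v) = Q v := by
    intro g hg v
    rw [glEquiv_apply]
    exact hg v v
  have hfin : Finite (Submodule F (ι → F)) := inferInstance
  let f : Function.End {W : Submodule F (ι → F) // MemG Q m W₀ W} := fun s =>
    ⟨s.1.map (Matrix.toLin' (x : Matrix ι ι F)),
      mem_map Q m W₀ (glEquiv x) (hiso x hx) s.1 s.2⟩
  have hf1 : ∀ s, (f s).1 = s.1.map (Matrix.toLin' (x : Matrix ι ι F)) := fun s => rfl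
  have hpow : ∀ (k : ℕ) (s : {W : Submodule F (ι → F) // MemG Q m W₀ W}),
      ((f ^ k) s).1 = s.1.map
        (Matrix.toLin' ((x ^ k : Matrix.GeneralLinearGroup ι F) : Matrix ι ι F)) := by
    intro k
    induction k with
    | zero =>
      intro s
      rw [pow_zero, pow_zero, Units.val_one, Matrix.toLin'_one, Submodule.map_id]
      rfl
    | succ k ih =>
      intro s
      rw [pow_succ', pow_succ', Units.val_mul, Matrix.toLin'_mul, Submodule.map_comp, ← ih s]
      rfl
  have hfr : f ^ r ^ 1 = 1 := by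
    rw [pow_one]
    funext s
    apply Subtype.ext
    rw [hpow, hxr, Units.val_one, Matrix.toLin'_one, Submodule.map_id]
    rfl
  have hmod := Equiv.Perm.card_fixedPoints_modEq (f := f) (p := r) (n := 1) hfr
  have hfix_iff : ∀ s : {W : Submodule F (ι → F) // MemG Q m W₀ W},
      f s = s ↔ s.1.map (Matrix.toLin' (x : Matrix ι ι F)) ≤ s.1 := by
    intro s
    constructor
    · intro h
      have h1 : (f s).1 = s.1 := congrArg Subtype.val h
      rw [hf1] at h1
      exact le_of_eq h1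
    · intro h
      apply Subtype.ext
      rw [hf1]
      apply Submodule.eq_of_le_of_finrank_eq h
      rw [← glEquiv_coe]
      exact LinearEquiv.finrank_map_eq (glEquiv x) s.1
  have hequiv : Nat.card (Function.fixedPoints f) =
      Nat.card {W : Submodule F (ι → F) //
        MemG Q m W₀ W ∧ W.map (Matrix.toLin' (x : Matrix ι ι F)) ≤ W} := by
    apply Nat.card_congr
    exact
      { toFun := fun s => ⟨s.1.1, s.1.2, (hfix_iff s.1).1 s.2⟩
        invFun := fun W => ⟨⟨W.1, W.2.1⟩, (hfix_iff ⟨W.1, W.2.1⟩).2 W.2.2⟩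
        left_inv := fun s => rfl
        right_inv := fun W => rfl }
  rw [← hequiv, Nat.card_eq_fintype_card, Nat.card_eq_fintype_card]
  exact hmod

/-- the restriction of the form to `U` -/
def rq {F : Type u} [Field F] {ι : Type} (Qf : QuadraticForm F (ι → F))
    (U : Submodule F (ι → F)) : QuadraticForm F ↥U :=
  Qf.comp U.subtype

theorem rq_apply {F : Type u} [Field F] {ι : Type} (Qf : QuadraticForm F (ι → F)) (U : Submodule F (ι → F)) (x : ↥U) :
    rq Qf U x = ⇑Qf (x : ι → F) := rfl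

theorem polar_rq {F : Type u} [Field F] {ι : Type} (Qf : QuadraticForm F (ι → F)) (U : Submodule F (ι → F)) (x y : ↥U) :
    QuadraticMap.polar (rq Qf U) x y =
      QuadraticMap.polar (⇑Qf) (x : ι → F) (y : ι → F) := rfl

theorem polar_comm' {F : Type u} [Field F] {ι : Type} (Qf : QuadraticForm F (ι → F)) (x y : ι → F) :
    QuadraticMap.polar (⇑Qf) x y =
      QuadraticMap.polar (⇑Qf) y x := QuadraticMap.polar_comm _ x y

/-- transfer of membership -/
theorem amem_iff {F : Type u} [Field F] {ι : Type} [Fintype ι] [DecidableEq ι]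
    (Qf : QuadraticForm F (ι → F)) (U : Submodule F (ι → F)) (m : ℕ) (W₀ : Submodule F (ι → F))
    (hW₀ : Module.finrank F ↥W₀ = m) (Ws : Submodule F ↥U) :
    AMem (rq Qf U) (rq Qf W₀) Ws ↔ MemG (⇑Qf) m W₀ (Ws.map U.subtype) := by
  have hfr : Module.finrank F ↥(Ws.map U.subtype) = Module.finrank F ↥Ws :=
    Submodule.finrank_map_subtype_eq U Ws
  have hnd : (∀ x ∈ Ws, (∀ y ∈ Ws, QuadraticMap.polar (rq Qf U) x y = 0) → x = 0) ↔
      Cfsg.Geo.IsNondegenerateOn (QuadraticMap.polar (⇑Qf))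
        (Ws.map U.subtype) := by
    constructor
    · intro h w hw hw0
      obtain ⟨w₀, hw₀, rfl⟩ := Submodule.mem_map.mp hw
      have hw₀0 : w₀ ≠ 0 := by
        rintro rfl
        exact hw0 (map_zero _)
      have hex : ∃ y ∈ Ws, QuadraticMap.polar (rq Qf U) w₀ y ≠ 0 := by
        by_contra hc
        push Not at hc
        exact hw₀0 (h w₀ hw₀ hc)
      obtain ⟨y, hy, hy0⟩ := hex
      rw [polar_rq Qf] at hy0
      refine ⟨⟨U.subtype y, Submodule.mem_map_of_mem hy, ?_⟩,
        ⟨U.subtype y, Submodule.mem_map_of_mem hy, ?_⟩⟩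
      · rw [polar_comm' Qf]
        exact hy0
      · exact hy0
    · intro h x hx hxy
      by_contra hx0
      have hx0' : U.subtype x ≠ 0 := by
        intro h0
        exact hx0 (Subtype.ext h0)
      obtain ⟨-, z, hz, hz0⟩ := h (U.subtype x) (Submodule.mem_map_of_mem hx) hx0'
      obtain ⟨y, hy, rfl⟩ := Submodule.mem_map.mp hz
      exact hz0 (hxy y hy)
  constructor
  · rintro ⟨h1, e, he⟩
    refine ⟨?_, hnd.mp h1, ?_⟩
    · rw [hfr, LinearEquiv.finrank_eq e, hW₀]
    · refine ⟨(U.equivSubtypeMap Ws).symm.trans e, ?_⟩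
      intro w
      have h2 := he ((U.equivSubtypeMap Ws).symm w)
      rw [rq_apply Qf, rq_apply Qf] at h2
      rw [LinearEquiv.trans_apply, h2, Submodule.equivSubtypeMap_symm_apply]
  · rintro ⟨-, h1, e, he⟩
    refine ⟨hnd.mpr h1, (U.equivSubtypeMap Ws).trans e, ?_⟩
    intro w
    rw [rq_apply Qf, rq_apply Qf, LinearEquiv.trans_apply, he]
    rfl

/-- transfer of `ACardI` to a nondegenerate subspace `U` of a coordinate quadratic space -/
theorem ucard (hAC : ACardI.{u}) {F : Type u} [Field F] [Fintype F] (p : ℕ) [Fact p.Prime]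
    [CharP F p] (hodd : Odd (Fintype.card F)) {ι : Type} [Fintype ι] [DecidableEq ι]
    (Qf : QuadraticForm F (ι → F)) (m : ℕ) (W₀ : Submodule F (ι → F))
    (hW₀ : Module.finrank F ↥W₀ = m) (r : ℕ) [Fact r.Prime] (hr2 : r ≠ 2) (hrp : r ≠ p)
    (U : Submodule F (ι → F))
    (hU : Cfsg.Geo.IsNondegenerateOn (QuadraticMap.polar (⇑Qf)) U)
    (hUc : Module.finrank F ↥U < cc (orderOf ((Fintype.card F : ℕ) : ZMod r)))
    (hex : ∃ W : Submodule F (ι → F), MemG (⇑Qf) m W₀ W ∧ W ≤ U) :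
    ¬ r ∣ Nat.card {W : Submodule F (ι → F) // MemG (⇑Qf) m W₀ W ∧ W ≤ U} := by
  classical
  have hne : ∃ Ws : Submodule F ↥U, AMem (rq Qf U) (rq Qf W₀) Ws := by
    obtain ⟨W₁, hE, hW₁⟩ := hex
    refine ⟨W₁.comap U.subtype, ?_⟩
    rw [amem_iff Qf U m W₀ hW₀, Submodule.map_comap_subtype, inf_eq_right.mpr hW₁]
    exact hE
  have hSep : ∀ x : ↥U, (∀ y : ↥U, QuadraticMap.polar (rq Qf U) x y = 0) → x = 0 := by
    intro x hx
    by_contra hx0
    have hx0' : (x : ι → F) ≠ 0 := fun h0 => hx0 (Subtype.ext h0)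
    obtain ⟨-, z, hz, hz0⟩ := hU (x : ι → F) x.2 hx0'
    exact hz0 (hx ⟨z, hz⟩)
  have key := hAC F p hodd ↥U (rq Qf U) hSep ↥W₀ (rq Qf W₀) r hr2 hrp hUc hne
  have hcard : Nat.card {W : Submodule F (ι → F) // MemG (⇑Qf) m W₀ W ∧ W ≤ U} =
      Nat.card {Ws : Submodule F ↥U // AMem (rq Qf U) (rq Qf W₀) Ws} := by
    refine Nat.card_congr
      { toFun := fun W => ⟨W.1.comap U.subtype, ?_⟩
        invFun := fun Ws => ⟨Ws.1.map U.subtype, ⟨(amem_iff Qf U m W₀ hW₀ Ws.1).mp Ws.2,
          Submodule.map_subtype_le U Ws.1⟩⟩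
        left_inv := ?_
        right_inv := ?_ }
    · rw [amem_iff Qf U m W₀ hW₀, Submodule.map_comap_subtype, inf_eq_right.mpr W.2.2]
      exact W.2.1
    · intro W
      apply Subtype.ext
      show (W.1.comap U.subtype).map U.subtype = W.1
      rw [Submodule.map_comap_subtype, inf_eq_right.mpr W.2.2]
    · intro Ws
      apply Subtype.ext
      show (Ws.1.map U.subtype).comap U.subtype = Ws.1
      exact Submodule.comap_map_eq_of_injective (Submodule.injective_subtype U) Ws.1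
  rw [hcard]
  exact key

end Cfsg.Agent.Lib.Helper4.GenCount
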