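import Mathlib
import Cfsg.Agent.Lib.Helper94.OPStmt
import Cfsg.Agent.Lib.Helper94.EllStmt
import Cfsg.Agent.Lib.Helper44.WittND2

/-!
# S5989 piece ACARDI (call by helper94): `r` does not divide the number of nondegenerate
subspaces isometric to `(M, QM)` of a small nondegenerate quadratic space

Copy of `Helper4.EllACARD`; transitivity comes from Witt's theorem
`Helper44.WittND2.exists_O_map`.
-/

set_option autoImplicit false

namespace Cfsg.Agent.Lib.Helper4.OPACARDI

open Cfsg.Agent.Lib.Helper37.HypStmt Cfsg.Agent.Lib.Helper94.OPStmt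

universe u

/-- an isometry maps members to members -/
theorem amem_map {F : Type u} [Field F] {V : Type u} [AddCommGroup V] [Module F V]
    (Q : QuadraticForm F V) {M : Type u} [AddCommGroup M] [Module F M] (QM : QuadraticForm F M)
    (g : V ≃ₗ[F] V) (hg : ∀ v, Q (g v) = Q v)
    (W : Submodule F V) (hW : AMem Q QM W) : AMem Q QM (W.map (g : V →ₗ[F] V)) := by
  have hpolar : ∀ a b, QuadraticMap.polar Q (g a) (g b) = QuadraticMap.polar Q a b := by
    intro a b
    simp only [QuadraticMap.polar, ← map_add, hg]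
  refine ⟨?_, ?_⟩
  · rintro x ⟨w, hw, rfl⟩ hx
    have hw0 : w = 0 := by
      apply hW.1 w hw
      intro y hy
      rw [← hpolar w y]
      exact hx (g y) ⟨y, hy, rfl⟩
    rw [hw0]
    simp
  · obtain ⟨e₀, he₀⟩ := hW.2
    refine ⟨(g.submoduleMap W).symm.trans e₀, ?_⟩
    intro w'
    have h1 : ((g.submoduleMap W) ((g.submoduleMap W).symm w') : V) =
        g (((g.submoduleMap W).symm w' : ↥W) : V) := rfl
    rw [LinearEquiv.apply_symm_apply] at h1
    rw [LinearEquiv.trans_apply, he₀, h1, hg]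

/-- transitivity of the isometry group on the members (Witt) -/
theorem trans_amem {F : Type u} [Field F] {V : Type u} [AddCommGroup V] [Module F V]
    [FiniteDimensional F V] (Q : QuadraticForm F V)
    (hnd : ∀ x, (∀ y, QuadraticMap.polar Q x y = 0) → x = 0)
    {M : Type u} [AddCommGroup M] [Module F M] (QM : QuadraticForm F M)
    (W W' : Submodule F V) (hW : AMem Q QM W) (hW' : AMem Q QM W') :
    ∃ g : V ≃ₗ[F] V, (∀ v, Q (g v) = Q v) ∧ W.map (g : V →ₗ[F] V) = W' := by
  obtain ⟨e, he⟩ := hW.2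
  obtain ⟨e', he'⟩ := hW'.2
  have hU : W ⊓ LinearMap.BilinForm.orthogonal (QuadraticMap.polarBilin Q) W = ⊥ := by
    rw [eq_bot_iff]
    rintro x ⟨hx, hx'⟩
    rw [Submodule.mem_bot]
    apply hW.1 x hx
    intro y hy
    have h := (LinearMap.BilinForm.mem_orthogonal_iff.mp hx') y hy
    have h2 : QuadraticMap.polar Q y x = 0 := h
    rw [QuadraticMap.polar_comm]
    exact h2
  obtain ⟨g, hg, hgW⟩ := Cfsg.Agent.Lib.Helper44.WittND2.exists_O_map (Q := Q) hnd hU
    (e.trans e'.symm) (by
      intro u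
      rw [LinearEquiv.trans_apply, ← he', LinearEquiv.apply_symm_apply, he])
  exact ⟨g, fun v => hg v, hgW⟩

theorem main (hCa : Cfsg.Agent.Lib.Helper94.EllStmt.ACauchy.{u}) :
    Cfsg.Agent.Lib.Helper94.OPStmt.ACardI.{u} := by
  intro F _ _ p _ _ hodd V _ _ _ Q hnd M _ _ QM r _ hr2 hrp hdim hex hdvd
  classical
  have hVfin : Finite V := Module.finite_of_finite F
  have hGLfin : Finite (V ≃ₗ[F] V) :=
    Finite.of_injective (fun g : V ≃ₗ[F] V => (g : V → V)) DFunLike.coe_injective
  -- the isometry group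
  let G : Subgroup (V ≃ₗ[F] V) :=
    { carrier := {g | ∀ v, Q (g v) = Q v}
      mul_mem' := by
        intro a b ha hb v
        rw [LinearEquiv.mul_apply, ha, hb]
      one_mem' := by
        intro v
        rfl
      inv_mem' := by
        intro a ha v
        have e : a (a⁻¹ v) = v := by
          rw [← LinearEquiv.mul_apply, mul_inv_cancel]
          rfl
        rw [← ha (a⁻¹ v), e] }
  have hGmem : ∀ g : G, ∀ v, Q ((g : V ≃ₗ[F] V) v) = Q v := fun g => g.2
  -- the action on elliptic subspaces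
  let act : MulAction G {W : Submodule F V // AMem Q QM W} :=
    { smul := fun g s => ⟨s.1.map ((g : V ≃ₗ[F] V) : V →ₗ[F] V),
        amem_map Q QM (g : V ≃ₗ[F] V) (hGmem g) s.1 s.2⟩
      one_smul := by
        intro s
        apply Subtype.ext
        show s.1.map (((1 : G) : V ≃ₗ[F] V) : V →ₗ[F] V) = s.1
        ext x
        constructor
        · rintro ⟨w, hw, rfl⟩
          exact hw
        · intro hx
          exact ⟨x, hx, rfl⟩
      mul_smul := by
        intro a b s
        apply Subtype.ext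
        show s.1.map (((a * b : G) : V ≃ₗ[F] V) : V →ₗ[F] V) =
          (s.1.map ((b : V ≃ₗ[F] V) : V →ₗ[F] V)).map ((a : V ≃ₗ[F] V) : V →ₗ[F] V)
        ext x
        constructor
        · rintro ⟨w, hw, rfl⟩
          exact ⟨(b : V ≃ₗ[F] V) w, ⟨w, hw, rfl⟩, rfl⟩
        · rintro ⟨_, ⟨w, hw, rfl⟩, rfl⟩
          exact ⟨w, hw, rfl⟩ }
  have hsmul : ∀ (g : G) (s : {W : Submodule F V // AMem Q QM W}),
      (g • s).1 = s.1.map ((g : V ≃ₗ[F] V) : V →ₗ[F] V) := fun g s => rfl
  have htrans : MulAction.IsPretransitive G {W : Submodule F V // AMem Q QM W} := by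
    refine ⟨fun s s' => ?_⟩
    obtain ⟨g, hg, hgW⟩ := trans_amem Q hnd QM s.1 s'.1 s.2 s'.2
    refine ⟨⟨g, hg⟩, ?_⟩
    apply Subtype.ext
    rw [hsmul]
    exact hgW
  obtain ⟨W₀, hW₀⟩ := hex
  have hidx : (MulAction.stabilizer G
      (⟨W₀, hW₀⟩ : {W : Submodule F V // AMem Q QM W})).index =
      Nat.card {W : Submodule F V // AMem Q QM W} :=
    MulAction.index_stabilizer_of_transitive G _
  have hrG : r ∣ Nat.card G := by
    rw [← hidx] at hdvd
    exact hdvd.trans (Subgroup.index_dvd_card _)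
  obtain ⟨g, hg⟩ := exists_prime_orderOf_dvd_card' r hrG
  have hgr : ((g : V ≃ₗ[F] V)) ^ r = 1 := by
    have h0 := pow_orderOf_eq_one g
    rw [hg] at h0
    have h1 := congrArg Subtype.val h0
    simpa using h1
  have hg1 := hCa F p hodd V Q hnd r hr2 hrp hdim (g : V ≃ₗ[F] V) (hGmem g) hgr
  have hg1' : g = 1 := Subtype.ext hg1
  rw [hg1', orderOf_one] at hg
  exact (Fact.out : r.Prime).one_lt.ne hg

end Cfsg.Agent.Lib.Helper4.OPACARDI
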