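import Mathlib
import Cfsg.Agent.Lib.Helper94.EllStmt

/-!
# S5993 piece ACARD: `r` does not divide the number of elliptic `m`-subspaces of a small
nondegenerate quadratic space
-/

set_option autoImplicit false

namespace Cfsg.Agent.Lib.Helper4.EllACARD

open Cfsg.Agent.Lib.Helper37.HypStmt Cfsg.Agent.Lib.Helper94.EllStmt

universe u

/-- an isometry maps elliptic `m`-subspaces to elliptic `m`-subspaces -/
theorem aell_map {F : Type u} [Field F] {V : Type u} [AddCommGroup V] [Module F V]
    (Q : QuadraticForm F V) (m : ℕ) (g : V ≃ₗ[F] V) (hg : ∀ v, Q (g v) = Q v)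
    (W : Submodule F V) (hW : AEll Q m W) : AEll Q m (W.map (g : V →ₗ[F] V)) := by
  have hpolar : ∀ a b, QuadraticMap.polar Q (g a) (g b) = QuadraticMap.polar Q a b := by
    intro a b
    simp only [QuadraticMap.polar, ← map_add, hg]
  have hfr : Module.finrank F ↥(W.map (g : V →ₗ[F] V)) = Module.finrank F ↥W :=
    LinearEquiv.finrank_map_eq g W
  refine ⟨hfr.trans hW.1, ?_, ?_⟩
  · rintro x ⟨w, hw, rfl⟩ hx
    have hw0 : w = 0 := by
      apply hW.2.1 w hw
      intro y hy
      rw [← hpolar w y]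
      exact hx (g y) ⟨y, hy, rfl⟩
    rw [hw0]
    simp
  · rintro ⟨T, hTW, hTs, hTd⟩
    apply hW.2.2
    refine ⟨T.map (g.symm : V →ₗ[F] V), ?_, ?_, ?_⟩
    · rintro x ⟨t, ht, rfl⟩
      obtain ⟨w, hw, hwt⟩ := hTW ht
      have e : g.symm t = w := by
        rw [← hwt]
        exact g.symm_apply_apply w
      show g.symm t ∈ W
      rw [e]
      exact hw
    · rintro x ⟨t, ht, rfl⟩
      show Q (g.symm t) = 0
      rw [← hg (g.symm t), g.apply_symm_apply]
      exact hTs t ht
    · rw [LinearEquiv.finrank_map_eq g.symm T, hTd, hfr]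

theorem main (hTr : ATrans.{u}) (hCa : ACauchy.{u}) : ACard.{u} := by
  intro F _ _ p _ _ hodd V _ _ _ Q hnd m hm r _ hr2 hrp hdim hex hdvd
  classical
  have hVfin : Finite V := Module.finite_of_finite F
  have hGLfin : Finite (V ≃ₗ[F] V) :=
    Finite.of_injective (fun g : V ≃ₗ[F] V => (g : V → V)) DFunLike.coe_injective
  -- the isometry group
  let G : Subgroup (V ≃ₗ[F] V) :=
    { carrier := {g | ∀ v, Q (g v) = Q v}
      mul_mem' := by
        intro a b ha hb v
        rw [LinearEquiv.mul_apply, ha, hb]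
      one_mem' := by
        intro v
        rfl
      inv_mem' := by
        intro a ha v
        have e : a (a⁻¹ v) = v := by
          rw [← LinearEquiv.mul_apply, mul_inv_cancel]
          rfl
        rw [← ha (a⁻¹ v), e] }
  have hGmem : ∀ g : G, ∀ v, Q ((g : V ≃ₗ[F] V) v) = Q v := fun g => g.2
  -- the action on elliptic subspaces
  let act : MulAction G {W : Submodule F V // AEll Q m W} :=
    { smul := fun g s => ⟨s.1.map ((g : V ≃ₗ[F] V) : V →ₗ[F] V),
        aell_map Q m (g : V ≃ₗ[F] V) (hGmem g) s.1 s.2⟩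
      one_smul := by
        intro s
        apply Subtype.ext
        show s.1.map (((1 : G) : V ≃ₗ[F] V) : V →ₗ[F] V) = s.1
        ext x
        constructor
        · rintro ⟨w, hw, rfl⟩
          exact hw
        · intro hx
          exact ⟨x, hx, rfl⟩
      mul_smul := by
        intro a b s
        apply Subtype.ext
        show s.1.map (((a * b : G) : V ≃ₗ[F] V) : V →ₗ[F] V) =
          (s.1.map ((b : V ≃ₗ[F] V) : V →ₗ[F] V)).map ((a : V ≃ₗ[F] V) : V →ₗ[F] V)
        ext x
        constructor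
        · rintro ⟨w, hw, rfl⟩
          exact ⟨(b : V ≃ₗ[F] V) w, ⟨w, hw, rfl⟩, rfl⟩
        · rintro ⟨_, ⟨w, hw, rfl⟩, rfl⟩
          exact ⟨w, hw, rfl⟩ }
  have hsmul : ∀ (g : G) (s : {W : Submodule F V // AEll Q m W}),
      (g • s).1 = s.1.map ((g : V ≃ₗ[F] V) : V →ₗ[F] V) := fun g s => rfl
  have htrans : MulAction.IsPretransitive G {W : Submodule F V // AEll Q m W} := by
    refine ⟨fun s s' => ?_⟩
    obtain ⟨g, hg, hgW⟩ := hTr F hodd V Q hnd m hm s.1 s'.1 s.2 s'.2
    refine ⟨⟨g, hg⟩, ?_⟩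
    apply Subtype.ext
    rw [hsmul]
    exact hgW
  obtain ⟨W₀, hW₀⟩ := hex
  have hidx : (MulAction.stabilizer G
      (⟨W₀, hW₀⟩ : {W : Submodule F V // AEll Q m W})).index =
      Nat.card {W : Submodule F V // AEll Q m W} :=
    MulAction.index_stabilizer_of_transitive G _
  have hrG : r ∣ Nat.card G := by
    rw [← hidx] at hdvd
    exact hdvd.trans (Subgroup.index_dvd_card _)
  obtain ⟨g, hg⟩ := exists_prime_orderOf_dvd_card' r hrG
  have hgr : ((g : V ≃ₗ[F] V)) ^ r = 1 := by
    have h0 := pow_orderOf_eq_one g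
    rw [hg] at h0
    have h1 := congrArg Subtype.val h0
    simpa using h1
  have hg1 := hCa F p hodd V Q hnd r hr2 hrp hdim (g : V ≃ₗ[F] V) (hGmem g) hgr
  have hg1' : g = 1 := Subtype.ext hg1
  rw [hg1', orderOf_one] at hg
  exact (Fact.out : r.Prime).one_lt.ne hg

end Cfsg.Agent.Lib.Helper4.EllACARD
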