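import Mathlib
import Cfsg.Agent.Lib.Helper94.EllStmt

/-!
# S5993 piece FIXCONG: the fixed point congruence for an isometry of `r`-power order acting on
the elliptic `m`-spaces
-/

set_option autoImplicit false

namespace Cfsg.Agent.Lib.Helper4.EllFIXCONG

open Cfsg.Agent.Lib.Helper37.HypStmt Cfsg.Agent.Lib.Helper94.EllStmt
open scoped Matrix

universe u

/-- the linear equivalence given by an invertible matrix -/
noncomputable def glEquiv {F : Type u} [Field F] {d : ℕ}
    (g : Matrix.GeneralLinearGroup (I d) F) : (I d → F) ≃ₗ[F] (I d → F) :=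
  LinearEquiv.ofLinear (Matrix.toLin' (g : Matrix (I d) (I d) F))
    (Matrix.toLin' ((g⁻¹ : Matrix.GeneralLinearGroup (I d) F) : Matrix (I d) (I d) F))
    (by rw [← Matrix.toLin'_mul, ← Units.val_mul, mul_inv_cancel, Units.val_one,
      Matrix.toLin'_one])
    (by rw [← Matrix.toLin'_mul, ← Units.val_mul, inv_mul_cancel, Units.val_one,
      Matrix.toLin'_one])

theorem glEquiv_coe {F : Type u} [Field F] {d : ℕ} (g : Matrix.GeneralLinearGroup (I d) F) :
    ((glEquiv g : (I d → F) ≃ₗ[F] (I d → F)) : (I d → F) →ₗ[F] (I d → F)) =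
      Matrix.toLin' (g : Matrix (I d) (I d) F) := rfl

theorem glEquiv_apply {F : Type u} [Field F] {d : ℕ} (g : Matrix.GeneralLinearGroup (I d) F)
    (v : I d → F) : glEquiv g v = (g : Matrix (I d) (I d) F) *ᵥ v := by
  show Matrix.toLin' (g : Matrix (I d) (I d) F) v = _
  rw [Matrix.toLin'_apply]

/-- an isometry maps elliptic `m`-spaces to elliptic `m`-spaces -/
theorem ell_map {F : Type u} [Field F] {d : ℕ} (m : ℕ) (e : (I d → F) ≃ₗ[F] (I d → F))
    (he : ∀ v, Cfsg.quadFormOdd d F (e v) = Cfsg.quadFormOdd d F v)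
    (W : Submodule F (I d → F)) (hW : Ell d F m W) :
    Ell d F m (W.map (e : (I d → F) →ₗ[F] (I d → F))) := by
  have hpolar : ∀ a b, QuadraticMap.polar (Cfsg.quadFormOdd d F) (e a) (e b) =
      QuadraticMap.polar (Cfsg.quadFormOdd d F) a b := by
    intro a b
    simp only [QuadraticMap.polar, ← map_add, he]
  have hfr : Module.finrank F ↥(W.map (e : (I d → F) →ₗ[F] (I d → F))) = Module.finrank F ↥W :=
    LinearEquiv.finrank_map_eq e W
  refine ⟨hfr.trans hW.1, ?_, ?_⟩
  · rintro x ⟨w, hw, rfl⟩ hx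
    have hw0 : w ≠ 0 := by
      rintro rfl
      apply hx
      simp
    obtain ⟨⟨a, ha, ha'⟩, ⟨b, hb, hb'⟩⟩ := hW.2.1 w hw hw0
    refine ⟨⟨e a, ⟨a, ha, rfl⟩, ?_⟩, ⟨e b, ⟨b, hb, rfl⟩, ?_⟩⟩
    · show QuadraticMap.polar (Cfsg.quadFormOdd d F) (e a) (e w) ≠ 0
      rw [hpolar]
      exact ha'
    · show QuadraticMap.polar (Cfsg.quadFormOdd d F) (e w) (e b) ≠ 0
      rw [hpolar]
      exact hb'
  · rintro ⟨T, hTW, hTs, hTd⟩
    apply hW.2.2
    refine ⟨T.map (e.symm : (I d → F) →ₗ[F] (I d → F)), ?_, ?_, ?_⟩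
    · rintro x ⟨t, ht, rfl⟩
      obtain ⟨w, hw, hwt⟩ := hTW ht
      have e1 : e.symm t = w := by
        rw [← hwt]
        exact e.symm_apply_apply w
      show e.symm t ∈ W
      rw [e1]
      exact hw
    · rintro x ⟨t, ht, rfl⟩
      show Cfsg.quadFormOdd d F (e.symm t) = 0
      rw [← he (e.symm t), e.apply_symm_apply]
      exact hTs t ht
    · rw [LinearEquiv.finrank_map_eq e.symm T, hTd, hfr]

theorem main : Cfsg.Agent.Lib.Helper94.EllStmt.FixCong.{u} := by
  intro F _ _ d m r _ x hx hxr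
  classical
  have hiso : ∀ g : Matrix.GeneralLinearGroup (I d) F,
      g ∈ Cfsg.isometryGroup F (Cfsg.quadFormOdd d F) →
      ∀ v, Cfsg.quadFormOdd d F (glEquiv g v) = Cfsg.quadFormOdd d F v := by
    intro g hg v
    rw [glEquiv_apply]
    exact hg v v
  have hfin : Finite (Submodule F (I d → F)) := inferInstance
  let f : Function.End {W : Submodule F (I d → F) // Ell d F m W} := fun s =>
    ⟨s.1.map (Matrix.toLin' (x : Matrix (I d) (I d) F)),
      ell_map m (glEquiv x) (hiso x hx) s.1 s.2⟩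
  have hf1 : ∀ s, (f s).1 = s.1.map (Matrix.toLin' (x : Matrix (I d) (I d) F)) := fun s => rfl
  have hpow : ∀ (k : ℕ) (s : {W : Submodule F (I d → F) // Ell d F m W}),
      ((f ^ k) s).1 = s.1.map
        (Matrix.toLin' ((x ^ k : Matrix.GeneralLinearGroup (I d) F) : Matrix (I d) (I d) F)) := by
    intro k
    induction k with
    | zero =>
      intro s
      rw [pow_zero, pow_zero, Units.val_one, Matrix.toLin'_one, Submodule.map_id]
      rfl
    | succ k ih =>
      intro s
      rw [pow_succ', pow_succ', Units.val_mul, Matrix.toLin'_mul, Submodule.map_comp, ← ih s]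
      rfl
  have hfr : f ^ r ^ 1 = 1 := by
    rw [pow_one]
    funext s
    apply Subtype.ext
    rw [hpow, hxr, Units.val_one, Matrix.toLin'_one, Submodule.map_id]
    rfl
  have hmod := Equiv.Perm.card_fixedPoints_modEq (f := f) (p := r) (n := 1) hfr
  have hfix_iff : ∀ s : {W : Submodule F (I d → F) // Ell d F m W},
      f s = s ↔ Stab (x : Matrix (I d) (I d) F) s.1 := by
    intro s
    constructor
    · intro h
      have h1 : (f s).1 = s.1 := congrArg Subtype.val h
      rw [hf1] at h1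
      exact le_of_eq h1
    · intro h
      apply Subtype.ext
      rw [hf1]
      apply Submodule.eq_of_le_of_finrank_eq h
      rw [← glEquiv_coe]
      exact LinearEquiv.finrank_map_eq (glEquiv x) s.1
  have hequiv : Nat.card (Function.fixedPoints f) =
      Nat.card {W : Submodule F (I d → F) //
        Ell d F m W ∧ Stab (x : Matrix (I d) (I d) F) W} := by
    apply Nat.card_congr
    exact
      { toFun := fun s => ⟨s.1.1, s.1.2, (hfix_iff s.1).1 s.2⟩
        invFun := fun W => ⟨⟨W.1, W.2.1⟩, (hfix_iff ⟨W.1, W.2.1⟩).2 W.2.2⟩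
        left_inv := fun s => rfl
        right_inv := fun W => rfl }
  rw [← hequiv, Nat.card_eq_fintype_card, Nat.card_eq_fintype_card]
  exact hmod

end Cfsg.Agent.Lib.Helper4.EllFIXCONG
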