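import Mathlib
import Cfsg.Agent.Lib.Helper96.HallAltStmt

/-! S2538, piece J3: a primitive permutation group containing a cycle of prime length `p` with
`p + 2 ≤ n` has order divisible by 3 (Jordan: it is 3-transitive). Adapted from
`Helper85.HSJ2`. -/

set_option autoImplicit false

namespace Cfsg.Agent.Lib.Helper4.HAJ3

open Equiv Cfsg.Agent.Lib.Helper96.HallSymStmt Cfsg.Agent.Lib.Helper96.HallAltStmt MulAction

theorem main : Cfsg.Agent.Lib.Helper96.HallAltStmt.J3 := by
  intro Ω _ _ H g hprim hgH hcyc hpr hlt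
  classical
  have hp2 := hpr.two_le
  obtain ⟨k, hk⟩ : ∃ k, Fintype.card Ω = g.support.card + k + 1 :=
    ⟨Fintype.card Ω - g.support.card - 1, by omega⟩
  have hk1 : 1 ≤ k := by omega
  have hsc : Set.ncard ((g.support : Set Ω)ᶜ) = k + 1 := by
    apply Nat.add_left_cancel (n := (g.support : Set Ω).ncard)
    rw [Set.ncard_add_ncard_compl, Set.ncard_coe_finset, Nat.card_eq_fintype_card, hk]
    ring
  have hmp : IsMultiplyPreprimitive H Ω (k + 2) := by
    apply hprim.isMultiplyPreprimitive hsc
    · rw [Nat.card_eq_fintype_card, hk]; omega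
    have := Equiv.Perm.isPretransitive_of_isCycle_mem hcyc hgH
    apply IsPreprimitive.of_prime_card
    convert hpr
    rw [Nat.card_eq_fintype_card, Fintype.card_subtype]
    apply congr_arg
    ext x
    simp [SubMulAction.mem_ofFixingSubgroup_iff]
  have h3 : IsMultiplyPretransitive H Ω 3 := by
    haveI := hmp
    exact isMultiplyPretransitive_of_le (n := k + 2) (by omega)
      (by rw [Nat.card_eq_fintype_card, hk]; omega)
  have h3' : IsPretransitive H (Fin 3 ↪ Ω) := h3
  obtain ⟨x, y, z, hxy, hxz, hyz⟩ : ∃ x y z : Ω, x ≠ y ∧ x ≠ z ∧ y ≠ z := by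
    have h1 : 2 < Fintype.card Ω := by omega
    exact Fintype.two_lt_card_iff.mp h1
  have hinj1 : Function.Injective (![x, y, z] : Fin 3 → Ω) := by
    intro i j hij
    fin_cases i <;> fin_cases j <;> simp_all
  have hinj2 : Function.Injective (![y, z, x] : Fin 3 → Ω) := by
    intro i j hij
    fin_cases i <;> fin_cases j <;> simp_all
  obtain ⟨h, hh⟩ := exists_smul_eq H (⟨![x, y, z], hinj1⟩ : Fin 3 ↪ Ω) ⟨![y, z, x], hinj2⟩
  have hx : h • x = y := by
    have e := congrArg (fun e : Fin 3 ↪ Ω => e 0) hh
    simpa using e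
  have hy : h • y = z := by
    have e := congrArg (fun e : Fin 3 ↪ Ω => e 1) hh
    simpa using e
  have hz : h • z = x := by
    have e := congrArg (fun e : Fin 3 ↪ Ω => e 2) hh
    simpa using e
  have key : ∀ m : ℕ, (h ^ (3 * m)) • x = x := by
    intro m
    induction m with
    | zero => simp
    | succ m ih =>
      have e : h ^ (3 * (m + 1)) = h * (h * (h * h ^ (3 * m))) := by
        rw [← pow_succ', ← pow_succ', ← pow_succ']
        congr 1
      rw [e, mul_smul, mul_smul, mul_smul, ih, hx, hy, hz]
  have hev : 3 ∣ orderOf h := by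
    by_contra hnd
    have hmod : orderOf h % 3 = 1 ∨ orderOf h % 3 = 2 := by omega
    rcases hmod with h1 | h2
    · have e : orderOf h = 3 * (orderOf h / 3) + 1 := by omega
      have h4 : (h ^ (3 * (orderOf h / 3) + 1)) • x = y := by
        rw [pow_succ', mul_smul, key, hx]
      rw [← e, pow_orderOf_eq_one, one_smul] at h4
      exact hxy h4
    · have e : orderOf h = 3 * (orderOf h / 3) + 2 := by omega
      have h4 : (h ^ (3 * (orderOf h / 3) + 2)) • x = z := by
        rw [pow_succ', pow_succ', mul_smul, mul_smul, key, hx, hy]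
      rw [← e, pow_orderOf_eq_one, one_smul] at h4
      exact hxz h4
  exact hev.trans (orderOf_dvd_natCard h)

end Cfsg.Agent.Lib.Helper4.HAJ3
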