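import Mathlib
import Cfsg.Agent.Lib.Helper96.HallAltStmt

/-! S2538, piece PD2: in prime degree a nontrivial subgroup normalized by a transitive group
is transitive (a transitive group of prime degree is primitive, hence quasiprimitive). -/

set_option autoImplicit false

namespace Cfsg.Agent.Lib.Helper4.HAPD2

open Equiv Cfsg.Agent.Lib.Helper96.HallSymStmt Cfsg.Agent.Lib.Helper96.HallAltStmt

theorem main : Cfsg.Agent.Lib.Helper96.HallAltStmt.PD2 := by
  intro Ω _ _ hp L N hL hNL hnorm hne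
  classical
  haveI : MulAction.IsPretransitive ↥L Ω :=
    ⟨fun x y => by
      obtain ⟨h, hh, hxy⟩ := hL x y
      exact ⟨⟨h, hh⟩, hxy⟩⟩
  haveI : MulAction.IsPreprimitive ↥L Ω :=
    MulAction.IsPreprimitive.of_prime_card (by rw [Nat.card_eq_fintype_card]; exact hp)
  haveI hnormal : (N.subgroupOf L).Normal :=
    ⟨fun n hn g => by
      rw [Subgroup.mem_subgroupOf] at hn ⊢
      exact hnorm g.1 g.2 n.1 hn⟩
  have hfix : MulAction.fixedPoints ↥(N.subgroupOf L) Ω ≠ Set.univ := by
    intro htop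
    apply hne
    rw [Subgroup.eq_bot_iff_forall]
    intro n hn
    ext x
    have hx : x ∈ MulAction.fixedPoints ↥(N.subgroupOf L) Ω := by rw [htop]; exact Set.mem_univ x
    exact hx ⟨⟨n, hNL hn⟩, Subgroup.mem_subgroupOf.mpr hn⟩
  haveI := MulAction.IsQuasiPreprimitive.isPretransitive_of_normal (G := ↥L) (X := Ω) hfix
  intro x y
  obtain ⟨n, hn⟩ := MulAction.exists_smul_eq ↥(N.subgroupOf L) x y
  exact ⟨n.1.1, Subgroup.mem_subgroupOf.mp n.2, hn⟩

end Cfsg.Agent.Lib.Helper4.HAPD2
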