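import Mathlib
import Cfsg.Agent.Lib.Helper96.HallAltStmt

/-! S2538, piece QCNT: a group permuting the fibres of a surjection `f : Ω → ι` maps to `Perm ι`
with kernel `M ⊓ FP f`. -/

set_option autoImplicit false

namespace Cfsg.Agent.Lib.Helper4.HAQCNT

open Equiv Cfsg.Agent.Lib.Helper96.HallSymStmt Cfsg.Agent.Lib.Helper96.HallAltStmt

theorem main : Cfsg.Agent.Lib.Helper96.HallAltStmt.QCNT := by
  intro Ω _ _ ι _ f M hsurj hperm
  classical
  obtain ⟨s, hs⟩ : ∃ s : ι → Ω, ∀ i, f (s i) = i :=
    ⟨Function.surjInv hsurj, Function.surjInv_eq hsurj⟩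
  have key : ∀ h ∈ M, ∀ x, f (h (s (f x))) = f (h x) := fun h hh x =>
    hperm h hh _ _ (hs (f x))
  let toP : ↥M → Perm ι := fun h =>
    { toFun := fun i => f (h.1 (s i))
      invFun := fun i => f (h.1⁻¹ (s i))
      left_inv := by
        intro i
        show f (h.1⁻¹ (s (f (h.1 (s i))))) = i
        have e : (h.1)⁻¹ (h.1 (s i)) = s i := Equiv.symm_apply_apply h.1 (s i)
        rw [key h.1⁻¹ (M.inv_mem h.2), e, hs]
      right_inv := by
        intro i
        show f (h.1 (s (f (h.1⁻¹ (s i))))) = i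
        have e : h.1 ((h.1)⁻¹ (s i)) = s i := Equiv.apply_symm_apply h.1 (s i)
        rw [key h.1 h.2, e, hs] }
  have htoP : ∀ (h : ↥M) (x : Ω), toP h (f x) = f (h.1 x) := fun h x => key h.1 h.2 x
  let φ : ↥M →* Perm ι :=
    { toFun := toP
      map_one' := by
        ext i
        show f ((1 : Perm Ω) (s i)) = i
        rw [Perm.one_apply, hs]
      map_mul' := by
        intro a b
        ext i
        show f ((a * b).1 (s i)) = toP a (toP b i)
        have h1 : toP b i = f (b.1 (s i)) := rfl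
        rw [h1, htoP a (b.1 (s i))]
        rfl }
  have hker : φ.ker = (M ⊓ FP f).subgroupOf M := by
    ext h
    rw [MonoidHom.mem_ker, Subgroup.mem_subgroupOf, Subgroup.mem_inf, mem_FP]
    constructor
    · intro h1
      refine ⟨h.2, fun x => ?_⟩
      have h2 := htoP h x
      have h3 : toP h (f x) = f x := congrArg (fun p : Perm ι => p (f x)) h1
      rw [← h2, h3]
    · rintro ⟨-, h1⟩
      ext i
      show f (h.1 (s i)) = i
      rw [h1, hs]
  have h1 := Subgroup.card_mul_index φ.ker
  rw [Subgroup.index_ker] at h1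
  have h2 : Nat.card φ.ker = Nat.card ↥(M ⊓ FP f) := by
    rw [hker]; exact Nat.card_congr (Subgroup.subgroupOfEquivOfLe inf_le_left).toEquiv
  have h3 : Nat.card φ.range ∣ (Fintype.card ι).factorial := by
    have h4 := Subgroup.card_subgroup_dvd_card φ.range
    rwa [Nat.card_eq_fintype_card (α := Perm ι), Fintype.card_perm] at h4
  rw [← h1, h2]
  exact Nat.mul_dvd_mul_left _ h3

end Cfsg.Agent.Lib.Helper4.HAQCNT
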