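import Mathlib
import Cfsg.Agent.Lib.Helper96.HallAltStmt

/-! S2538, piece STH: point stabilizers of a transitive Hall subgroup of `Alt(Ω)`. -/

set_option autoImplicit false

namespace Cfsg.Agent.Lib.Helper4.HASTH

open Equiv Cfsg.Agent.Lib.Helper96.HallSymStmt Cfsg.Agent.Lib.Helper96.HallAltStmt

theorem relIndex_stab {Ω : Type} [Fintype Ω] [DecidableEq Ω] (K : Subgroup (Perm Ω))
    (hK : Trans K) (x : Ω) :
    (MulAction.stabilizer (Perm Ω) x).relIndex K = Fintype.card Ω := by
  have h1 : (MulAction.stabilizer (Perm Ω) x).subgroupOf K = MulAction.stabilizer ↥K x := by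
    ext m
    rfl
  show ((MulAction.stabilizer (Perm Ω) x).subgroupOf K).index = _
  rw [h1, MulAction.index_stabilizer]
  have h2 : MulAction.orbit ↥K x = Set.univ := by
    ext y
    simp only [Set.mem_univ, iff_true]
    obtain ⟨h, hh, hxy⟩ := hK x y
    exact ⟨⟨h, hh⟩, hxy⟩
  rw [h2, Set.ncard_univ, Nat.card_eq_fintype_card]

theorem main : Cfsg.Agent.Lib.Helper96.HallAltStmt.STH := by
  intro Ω _ _ π M x hM hT
  classical
  obtain ⟨hMA, hpi, hidx⟩ := hM
  have hTA : Trans (alternatingGroup Ω) := fun a b => by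
    obtain ⟨h, hh, e⟩ := hT a b
    exact ⟨h, hMA hh, e⟩
  refine ⟨inf_le_inf_right _ hMA, ?_, ?_⟩
  · intro p hp hdvd
    exact hpi p hp (hdvd.trans (Subgroup.card_dvd_of_le inf_le_left))
  · intro p hp hpπ hdvd
    apply hidx p hp hpπ
    have e1 : (MulAction.stabilizer (Perm Ω) x).relIndex M * M.relIndex (alternatingGroup Ω) =
        (MulAction.stabilizer (Perm Ω) x ⊓ M).relIndex (alternatingGroup Ω) := by
      rw [← Subgroup.inf_relIndex_right (MulAction.stabilizer (Perm Ω) x) M]
      exact Subgroup.relIndex_mul_relIndex _ M (alternatingGroup Ω) inf_le_right hMA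
    have e2 : (MulAction.stabilizer (Perm Ω) x ⊓ M).relIndex
          (MulAction.stabilizer (Perm Ω) x ⊓ alternatingGroup Ω) *
        (MulAction.stabilizer (Perm Ω) x).relIndex (alternatingGroup Ω) =
        (MulAction.stabilizer (Perm Ω) x ⊓ M).relIndex (alternatingGroup Ω) := by
      rw [← Subgroup.inf_relIndex_right (MulAction.stabilizer (Perm Ω) x) (alternatingGroup Ω)]
      exact Subgroup.relIndex_mul_relIndex _ _ (alternatingGroup Ω) (inf_le_inf_left _ hMA)
        inf_le_right
    rw [relIndex_stab M hT x] at e1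
    rw [relIndex_stab _ hTA x] at e2
    have hpos : 0 < Fintype.card Ω := Fintype.card_pos_iff.mpr ⟨x⟩
    have heq : M.relIndex (alternatingGroup Ω) =
        (MulAction.stabilizer (Perm Ω) x ⊓ M).relIndex
          (MulAction.stabilizer (Perm Ω) x ⊓ alternatingGroup Ω) := by
      apply Nat.eq_of_mul_eq_mul_left hpos
      rw [e1, ← e2, mul_comm]
    rw [heq, inf_comm _ M, inf_comm _ (alternatingGroup Ω)]
    exact hdvd

end Cfsg.Agent.Lib.Helper4.HASTH
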