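import Mathlib
import Cfsg.Agent.Lib.Helper96.HallDStmt

/-!
# S2534: helper lemmas for the pieces XP, X7, X8 (subgroups of alternating groups whose
elements permute the fibres of a map with few small fibres are `{2, 3}`-groups)
-/

set_option autoImplicit false

namespace Cfsg.Agent.Lib.Helper4.HDCore

open Equiv Cfsg.Agent.Lib.Helper96.HallConjStmt Cfsg.Agent.Lib.Helper96.HallDStmt
open scoped Pointwise

/-- a fibre-preserving permutation of prime order `p`, all fibres smaller than `p`, is trivial -/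
theorem eq_one_of_fibres (hPINV : PINV) {Ω : Type} [Fintype Ω] [DecidableEq Ω] {ι : Type}
    (f : Ω → ι) (g : Perm Ω) (hg : ∀ x, f (g x) = f x) (p : ℕ) (hp : p.Prime) (hgp : g ^ p = 1)
    (hfib : ∀ i, (f ⁻¹' {i}).ncard < p) : g = 1 := by
  ext x
  have h := hPINV Ω g p hp hgp (f ⁻¹' {f x}) (by
    intro y hy
    simp only [Set.mem_preimage, Set.mem_singleton_iff] at hy ⊢
    rw [hg y, hy]) (hfib (f x)) x rfl
  simpa using h

/-- a fibre-permuting permutation of prime order `p`, fewer than `p` fibres, all fibres smaller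
than `p`, is trivial -/
theorem eq_one_of_blocks (hPINV : PINV) {Ω : Type} [Fintype Ω] [DecidableEq Ω] {ι : Type}
    [Fintype ι] [DecidableEq ι] (f : Ω → ι) (hf : Function.Surjective f)
    (g : Perm Ω) (σ : Perm ι) (hg : ∀ x, f (g x) = σ (f x)) (p : ℕ) (hp : p.Prime)
    (hgp : g ^ p = 1) (hι : Fintype.card ι < p) (hfib : ∀ i, (f ⁻¹' {i}).ncard < p) : g = 1 := by
  have hpow : ∀ k : ℕ, ∀ x, f ((g ^ k) x) = (σ ^ k) (f x) := by
    intro k
    induction k with
    | zero => intro x; simp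
    | succ k ih =>
      intro x
      rw [pow_succ', pow_succ', Perm.mul_apply, Perm.mul_apply, hg, ih]
  have hσp : σ ^ p = 1 := by
    ext i
    obtain ⟨x, rfl⟩ := hf i
    rw [← hpow p x, hgp]; simp
  have hσ : ∀ i, σ i = i := by
    intro i
    exact hPINV ι σ p hp hσp Set.univ (fun _ _ => Set.mem_univ _)
      (by rw [Set.ncard_univ, Nat.card_eq_fintype_card]; exact hι) i (Set.mem_univ i)
  exact eq_one_of_fibres hPINV f g (fun x => by rw [hg, hσ]) p hp hgp hfib

/-- a subgroup with no element of prime order `≥ 5` is a `π`-subgroup when `2, 3 ∈ π` -/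
theorem piSub_of_noPrime {G : Type} [Group G] [Finite G] (π : Set ℕ) (h2 : 2 ∈ π) (h3 : 3 ∈ π)
    (L : Subgroup G)
    (h : ∀ g ∈ L, ∀ p : ℕ, p.Prime → 5 ≤ p → g ^ p = 1 → g = 1) : Cfsg.IsPiSubgroup π L := by
  intro p hp hdvd
  by_contra hpπ
  have hp5 : 5 ≤ p := by
    have h2' : p ≠ 2 := fun h => hpπ (h ▸ h2)
    have h3' : p ≠ 3 := fun h => hpπ (h ▸ h3)
    have h2le := hp.two_le
    by_contra hlt
    have h4 : p = 4 := by omega
    subst h4
    exact absurd hp (by decide)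
  have : Fact p.Prime := ⟨hp⟩
  obtain ⟨g, hg⟩ := exists_prime_orderOf_dvd_card' p hdvd
  have h1 : (g : G) ^ p = 1 := by
    have h0 := pow_orderOf_eq_one g
    rw [hg] at h0
    have h0' := congrArg Subtype.val h0
    simpa using h0'
  have h1' := h g.1 g.2 p hp hp5 h1
  have hg1 : g = 1 := Subtype.ext h1'
  rw [hg1, orderOf_one] at hg
  exact hp.one_lt.ne hg

/-- the permutations preserving every fibre of `f` -/
def F {Ω ι : Type} (f : Ω → ι) : Subgroup (Perm Ω) where
  carrier := {g | ∀ x, f (g x) = f x}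
  mul_mem' := by
    intro a b ha hb x
    rw [Perm.mul_apply, ha (b x), hb x]
  one_mem' := by
    intro x
    rfl
  inv_mem' := by
    intro a ha x
    have h := ha (a⁻¹ x)
    have e : a (a⁻¹ x) = x := by rw [← Perm.mul_apply, mul_inv_cancel, Perm.one_apply]
    rw [e] at h
    exact h.symm

theorem mem_F {Ω ι : Type} (f : Ω → ι) (g : Perm Ω) : g ∈ F f ↔ ∀ x, f (g x) = f x := Iff.rfl

/-- the permutations permuting the fibres of `f` through a permutation of `ι` -/
def W {Ω ι : Type} (f : Ω → ι) : Subgroup (Perm Ω) where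
  carrier := {g | ∃ σ : Perm ι, ∀ x, f (g x) = σ (f x)}
  mul_mem' := by
    rintro a b ⟨σ, hσ⟩ ⟨τ, hτ⟩
    exact ⟨σ * τ, fun x => by rw [Perm.mul_apply, hσ, hτ, Perm.mul_apply]⟩
  one_mem' := ⟨1, fun x => rfl⟩
  inv_mem' := by
    rintro a ⟨σ, hσ⟩
    refine ⟨σ⁻¹, fun x => ?_⟩
    have h := hσ (a⁻¹ x)
    have e : a (a⁻¹ x) = x := by rw [← Perm.mul_apply, mul_inv_cancel, Perm.one_apply]
    rw [e] at h
    rw [h, ← Perm.mul_apply, inv_mul_cancel, Perm.one_apply]

theorem mem_W {Ω ι : Type} (f : Ω → ι) (g : Perm Ω) :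
    g ∈ W f ↔ ∃ σ : Perm ι, ∀ x, f (g x) = σ (f x) := Iff.rfl

/-- subgroups of the alternating group inside `F f`, fibres of size `< 5` -/
theorem piSub_F (hPINV : PINV) {Ω ι : Type} [Fintype Ω] [DecidableEq Ω] (f : Ω → ι)
    (hfib : ∀ i, (f ⁻¹' {i}).ncard < 5) (π : Set ℕ) (h2 : 2 ∈ π) (h3 : 3 ∈ π)
    (L : Subgroup (alternatingGroup Ω)) (hL : ∀ g ∈ L, (g : Perm Ω) ∈ F f) :
    Cfsg.IsPiSubgroup π L := by
  apply piSub_of_noPrime π h2 h3 L
  intro g hg p hp hp5 hgp
  have hgp' : (g : Perm Ω) ^ p = 1 := by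
    have h0 := congrArg Subtype.val hgp
    simpa using h0
  have h1 := eq_one_of_fibres hPINV f (g : Perm Ω) (hL g hg) p hp hgp'
    (fun i => lt_of_lt_of_le (hfib i) hp5)
  exact Subtype.ext h1

/-- subgroups of the alternating group inside `W f`, fewer than `5` fibres, of size `< 5` -/
theorem piSub_W (hPINV : PINV) {Ω ι : Type} [Fintype Ω] [DecidableEq Ω] [Fintype ι]
    [DecidableEq ι] (f : Ω → ι) (hf : Function.Surjective f) (hι : Fintype.card ι < 5)
    (hfib : ∀ i, (f ⁻¹' {i}).ncard < 5) (π : Set ℕ) (h2 : 2 ∈ π) (h3 : 3 ∈ π)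
    (L : Subgroup (alternatingGroup Ω)) (hL : ∀ g ∈ L, (g : Perm Ω) ∈ W f) :
    Cfsg.IsPiSubgroup π L := by
  apply piSub_of_noPrime π h2 h3 L
  intro g hg p hp hp5 hgp
  have hgp' : (g : Perm Ω) ^ p = 1 := by
    have h0 := congrArg Subtype.val hgp
    simpa using h0
  obtain ⟨σ, hσ⟩ := hL g hg
  have h1 := eq_one_of_blocks hPINV f hf (g : Perm Ω) σ hσ p hp hgp'
    (lt_of_lt_of_le hι hp5) (fun i => lt_of_lt_of_le (hfib i) hp5)
  exact Subtype.ext h1

/-- the size of a fibre, as a finset cardinality -/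
theorem ncard_fibre {Ω ι : Type} [Fintype Ω] [DecidableEq ι] (f : Ω → ι) (i : ι) :
    (f ⁻¹' {i}).ncard = (Finset.univ.filter (fun x => f x = i)).card := by
  rw [← Set.ncard_coe_finset]
  congr 1
  ext x
  simp

/-- a swap of two points of one fibre preserves the fibres -/
theorem swap_mem_F {Ω ι : Type} [DecidableEq Ω] (f : Ω → ι) (a b : Ω) (h : f a = f b) :
    swap a b ∈ F f := by
  intro z
  rw [Equiv.swap_apply_def]
  split_ifs with h1 h2
  · rw [h1, h]
  · rw [h2, h]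
  · rfl

/-- a set invariant under `g` is closed under `g` -/
theorem mem_of_smul_eq {Ω : Type} (g : Perm Ω) (Δ : Set Ω) (h : g • Δ = Δ) :
    ∀ y ∈ Δ, g y ∈ Δ := by
  intro y hy
  have h1 : g • y ∈ g • Δ := Set.smul_mem_smul_set hy
  rw [h] at h1
  exact h1

end Cfsg.Agent.Lib.Helper4.HDCore
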