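import Mathlib
import Cfsg.Agent.Lib.Helper96.HallDStmt
import Cfsg.Agent.Lib.Helper4.HDCore

/-!
# S2534 piece X7: a `{2, 3}`-subgroup of `A_7` without an invariant `3`-set
-/

set_option autoImplicit false

namespace Cfsg.Agent.Lib.Helper4.HDX7

open Equiv Cfsg.Agent.Lib.Helper96.HallConjStmt Cfsg.Agent.Lib.Helper96.HallDStmt
open Cfsg.Agent.Lib.Helper4.HDCore
open scoped Pointwise

/-- the block map: `{0,1,2}`, `{3,4,5}`, `{6}` -/
def f7 : Fin 7 → Fin 3 := ![0, 0, 0, 1, 1, 1, 2]

/-- `(0 1 2)` -/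
def u : Perm (Fin 7) := swap 0 1 * swap 1 2

/-- `(3 4 5)` -/
def u' : Perm (Fin 7) := swap 3 4 * swap 4 5

/-- `(0 3 1 4)(2 5)` -/
def v : Perm (Fin 7) := swap 0 3 * swap 3 1 * swap 1 4 * swap 2 5

theorem u_alt : u ∈ alternatingGroup (Fin 7) := by
  rw [Perm.mem_alternatingGroup]; decide

theorem u'_alt : u' ∈ alternatingGroup (Fin 7) := by
  rw [Perm.mem_alternatingGroup]; decide

theorem v_alt : v ∈ alternatingGroup (Fin 7) := by
  rw [Perm.mem_alternatingGroup]; decide

theorem u_W : u ∈ W f7 := ⟨1, by decide⟩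

theorem u'_W : u' ∈ W f7 := ⟨1, by decide⟩

theorem v_W : v ∈ W f7 := ⟨swap 0 1, by decide⟩

/-- a set closed under `u`, `u'`, `v` containing a point other than `6` contains `0, …, 5` -/
theorem closed_all (Δ : Set (Fin 7)) (hu : ∀ y ∈ Δ, u y ∈ Δ) (hu' : ∀ y ∈ Δ, u' y ∈ Δ)
    (hv : ∀ y ∈ Δ, v y ∈ Δ) (x : Fin 7) (hx : x ∈ Δ) (hx6 : x ≠ 6) :
    ∀ y : Fin 7, y ≠ 6 → y ∈ Δ := by
  have h0 : (0 : Fin 7) ∈ Δ := by
    fin_cases x
    · exact hx
    · have h1 := hu _ (hu _ hx)
      have e : u (u (1 : Fin 7)) = 0 := by decide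
      simpa [e] using h1
    · have h1 := hu _ hx
      have e : u (2 : Fin 7) = 0 := by decide
      simpa [e] using h1
    · have h1 := hv _ (hv _ (hv _ hx))
      have e : v (v (v (3 : Fin 7))) = 0 := by decide
      simpa [e] using h1
    · have h1 := hv _ hx
      have e : v (4 : Fin 7) = 0 := by decide
      simpa [e] using h1
    · have h1 := hu _ (hv _ hx)
      have e : u (v (5 : Fin 7)) = 0 := by decide
      simpa [e] using h1
    · exact absurd rfl hx6
  have h1 : (1 : Fin 7) ∈ Δ := by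
    have h := hu _ h0
    have e : u (0 : Fin 7) = 1 := by decide
    rwa [e] at h
  have h2 : (2 : Fin 7) ∈ Δ := by
    have h := hu _ h1
    have e : u (1 : Fin 7) = 2 := by decide
    rwa [e] at h
  have h3 : (3 : Fin 7) ∈ Δ := by
    have h := hv _ h0
    have e : v (0 : Fin 7) = 3 := by decide
    rwa [e] at h
  have h4 : (4 : Fin 7) ∈ Δ := by
    have h := hu' _ h3
    have e : u' (3 : Fin 7) = 4 := by decide
    rwa [e] at h
  have h5 : (5 : Fin 7) ∈ Δ := by
    have h := hu' _ h4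
    have e : u' (4 : Fin 7) = 5 := by decide
    rwa [e] at h
  intro y hy
  fin_cases y
  · exact h0
  · exact h1
  · exact h2
  · exact h3
  · exact h4
  · exact h5
  · exact absurd rfl hy

theorem main : Cfsg.Agent.Lib.Helper96.HallDStmt.X7' := by
  intro hPINV π h2 h3
  refine ⟨(W f7).subgroupOf (alternatingGroup (Fin 7)), ?_, ?_⟩
  · apply piSub_W hPINV f7 (by decide) (by decide) ?_ π h2 h3
    · intro g hg
      exact Subgroup.mem_subgroupOf.1 hg
    · intro i
      rw [ncard_fibre]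
      revert i
      decide
  · intro Δ hΔ
    by_contra hcon
    push Not at hcon
    have cl : ∀ g : Perm (Fin 7), g ∈ alternatingGroup (Fin 7) → g ∈ W f7 →
        ∀ y ∈ Δ, g y ∈ Δ := by
      intro g hg hgW
      exact mem_of_smul_eq g Δ (hcon ⟨g, hg⟩ (Subgroup.mem_subgroupOf.2 hgW))
    have hex : ∃ x ∈ Δ, x ≠ 6 := by
      by_contra hno
      push Not at hno
      have hsub : Δ ⊆ {(6 : Fin 7)} := fun x hx => hno x hx
      have hle := Set.ncard_le_ncard hsub (Set.toFinite _)
      rw [Set.ncard_singleton] at hle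
      omega
    obtain ⟨x, hx, hx6⟩ := hex
    have hall := closed_all Δ (cl u u_alt u_W) (cl u' u'_alt u'_W) (cl v v_alt v_W) x hx hx6
    have hsub : Δᶜ ⊆ {(6 : Fin 7)} := by
      intro y hy
      by_contra hy6
      exact hy (hall y hy6)
    have hle := Set.ncard_le_ncard hsub (Set.toFinite _)
    rw [Set.ncard_singleton] at hle
    have hsum := Set.ncard_add_ncard_compl Δ
    rw [Nat.card_eq_fintype_card, Fintype.card_fin] at hsum
    omega

end Cfsg.Agent.Lib.Helper4.HDX7
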