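import Mathlib
import Cfsg.Agent.Lib.Helper96.HallDStmt
import Cfsg.Agent.Lib.Helper4.HDCore

/-!
# S2534 piece X8: a `{2, 3}`-subgroup of `A_8` preserving no partition into two `4`-sets
-/

set_option autoImplicit false

namespace Cfsg.Agent.Lib.Helper4.HDX8

open Equiv Cfsg.Agent.Lib.Helper96.HallConjStmt Cfsg.Agent.Lib.Helper96.HallDStmt
open Cfsg.Agent.Lib.Helper4.HDCore
open scoped Pointwise

/-- the block map: `{0,1,2}`, `{3,4,5}`, `{6}`, `{7}` -/
def f8 : Fin 8 → Fin 4 := ![0, 0, 0, 1, 1, 1, 2, 3]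

/-- `(0 1 2)` -/
def u : Perm (Fin 8) := swap 0 1 * swap 1 2

/-- `(3 4 5)` -/
def u' : Perm (Fin 8) := swap 3 4 * swap 4 5

/-- `(0 3 1 4)(2 5)` -/
def v : Perm (Fin 8) := swap 0 3 * swap 3 1 * swap 1 4 * swap 2 5

theorem u_alt : u ∈ alternatingGroup (Fin 8) := by
  rw [Perm.mem_alternatingGroup]; decide

theorem u'_alt : u' ∈ alternatingGroup (Fin 8) := by
  rw [Perm.mem_alternatingGroup]; decide

theorem v_alt : v ∈ alternatingGroup (Fin 8) := by
  rw [Perm.mem_alternatingGroup]; decide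

theorem u_W : u ∈ W f8 := ⟨1, by decide⟩

theorem u'_W : u' ∈ W f8 := ⟨1, by decide⟩

theorem v_W : v ∈ W f8 := ⟨swap 0 1, by decide⟩

/-- a set closed under `u`, `u'`, `v` containing a point other than `6`, `7` contains
`0, …, 5` -/
theorem closed_all (Δ : Set (Fin 8)) (hu : ∀ y ∈ Δ, u y ∈ Δ) (hu' : ∀ y ∈ Δ, u' y ∈ Δ)
    (hv : ∀ y ∈ Δ, v y ∈ Δ) (x : Fin 8) (hx : x ∈ Δ) (hx6 : x ≠ 6) (hx7 : x ≠ 7) :
    ∀ y : Fin 8, y ≠ 6 → y ≠ 7 → y ∈ Δ := by
  have h0 : (0 : Fin 8) ∈ Δ := by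
    fin_cases x
    · exact hx
    · have h1 := hu _ (hu _ hx)
      have e : u (u (1 : Fin 8)) = 0 := by decide
      simpa [e] using h1
    · have h1 := hu _ hx
      have e : u (2 : Fin 8) = 0 := by decide
      simpa [e] using h1
    · have h1 := hv _ (hv _ (hv _ hx))
      have e : v (v (v (3 : Fin 8))) = 0 := by decide
      simpa [e] using h1
    · have h1 := hv _ hx
      have e : v (4 : Fin 8) = 0 := by decide
      simpa [e] using h1
    · have h1 := hu _ (hv _ hx)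
      have e : u (v (5 : Fin 8)) = 0 := by decide
      simpa [e] using h1
    · exact absurd rfl hx6
    · exact absurd rfl hx7
  have h1 : (1 : Fin 8) ∈ Δ := by
    have h := hu _ h0
    have e : u (0 : Fin 8) = 1 := by decide
    rwa [e] at h
  have h2 : (2 : Fin 8) ∈ Δ := by
    have h := hu _ h1
    have e : u (1 : Fin 8) = 2 := by decide
    rwa [e] at h
  have h3 : (3 : Fin 8) ∈ Δ := by
    have h := hv _ h0
    have e : v (0 : Fin 8) = 3 := by decide
    rwa [e] at h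
  have h4 : (4 : Fin 8) ∈ Δ := by
    have h := hu' _ h3
    have e : u' (3 : Fin 8) = 4 := by decide
    rwa [e] at h
  have h5 : (5 : Fin 8) ∈ Δ := by
    have h := hu' _ h4
    have e : u' (4 : Fin 8) = 5 := by decide
    rwa [e] at h
  intro y hy6 hy7
  fin_cases y
  · exact h0
  · exact h1
  · exact h2
  · exact h3
  · exact h4
  · exact h5
  · exact absurd rfl hy6
  · exact absurd rfl hy7

/-- a `4`-set containing `6` is moved by one of `u`, `u'`, `v` -/
theorem exists_move (Γ : Set (Fin 8)) (hΓ : Γ.ncard = 4) :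
    ∃ g : Perm (Fin 8), (g = u ∨ g = u' ∨ g = v) ∧ g • Γ ≠ Γ := by
  by_contra hcon
  push Not at hcon
  have cl : ∀ g : Perm (Fin 8), (g = u ∨ g = u' ∨ g = v) → ∀ y ∈ Γ, g y ∈ Γ := by
    intro g hg
    exact mem_of_smul_eq g Γ (hcon g hg)
  have hex : ∃ x ∈ Γ, x ≠ 6 ∧ x ≠ 7 := by
    by_contra hno
    push Not at hno
    have hsub : Γ ⊆ {(6 : Fin 8), (7 : Fin 8)} := by
      intro x hx
      by_cases h6 : x = 6
      · exact Or.inl h6
      · exact Or.inr (hno x hx h6)
    have hle := Set.ncard_le_ncard hsub (Set.toFinite _)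
    have h2 : ({(6 : Fin 8), (7 : Fin 8)} : Set (Fin 8)).ncard ≤ 2 := Set.ncard_insert_le _ _ |>.trans (by rw [Set.ncard_singleton])
    omega
  obtain ⟨x, hx, hx6, hx7⟩ := hex
  have hall := closed_all Γ (cl u (Or.inl rfl)) (cl u' (Or.inr (Or.inl rfl)))
    (cl v (Or.inr (Or.inr rfl))) x hx hx6 hx7
  have hsub : Γᶜ ⊆ {(6 : Fin 8), (7 : Fin 8)} := by
    intro y hy
    by_cases h6 : y = 6
    · exact Or.inl h6
    · right
      by_contra h7
      exact hy (hall y h6 h7)
  have hle := Set.ncard_le_ncard hsub (Set.toFinite _)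
  have h2 : ({(6 : Fin 8), (7 : Fin 8)} : Set (Fin 8)).ncard ≤ 2 := Set.ncard_insert_le _ _ |>.trans (by rw [Set.ncard_singleton])
  have hsum := Set.ncard_add_ncard_compl Γ
  rw [Nat.card_eq_fintype_card, Fintype.card_fin] at hsum
  omega

theorem main : Cfsg.Agent.Lib.Helper96.HallDStmt.X8' := by
  intro hPINV π h2 h3
  refine ⟨(W f8).subgroupOf (alternatingGroup (Fin 8)), ?_, ?_⟩
  · apply piSub_W hPINV f8 (by decide) (by decide) ?_ π h2 h3
    · intro g hg
      exact Subgroup.mem_subgroupOf.1 hg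
    · intro i
      rw [ncard_fibre]
      revert i
      decide
  · intro Δ hΔ
    have hΔc : Δᶜ.ncard = 4 := by
      have hsum := Set.ncard_add_ncard_compl Δ
      rw [Nat.card_eq_fintype_card, Fintype.card_fin] at hsum
      omega
    -- the three generators as elements of `L`, all fixing `6`
    have gen : ∀ g : Perm (Fin 8), (g = u ∨ g = u' ∨ g = v) →
        ∃ hg : g ∈ alternatingGroup (Fin 8),
          (⟨g, hg⟩ : alternatingGroup (Fin 8)) ∈ (W f8).subgroupOf (alternatingGroup (Fin 8))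
            ∧ g 6 = 6 := by
      rintro g (rfl | rfl | rfl)
      · exact ⟨u_alt, Subgroup.mem_subgroupOf.2 u_W, by decide⟩
      · exact ⟨u'_alt, Subgroup.mem_subgroupOf.2 u'_W, by decide⟩
      · exact ⟨v_alt, Subgroup.mem_subgroupOf.2 v_W, by decide⟩
    by_cases h6 : (6 : Fin 8) ∈ Δ
    · obtain ⟨g, hg, hmove⟩ := exists_move Δ hΔ
      obtain ⟨hgA, hgL, hg6⟩ := gen g hg
      refine ⟨⟨g, hgA⟩, hgL, hmove, ?_⟩
      intro heq
      have h1 : g • (6 : Fin 8) ∈ g • Δ := Set.smul_mem_smul_set h6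
      rw [Perm.smul_def, hg6] at h1
      have h1' : (6 : Fin 8) ∈ Δᶜ := by
        have : (6 : Fin 8) ∈ (((⟨g, hgA⟩ : alternatingGroup (Fin 8)) : Perm (Fin 8)) • Δ) := h1
        rw [heq] at this
        exact this
      exact h1' h6
    · obtain ⟨g, hg, hmove⟩ := exists_move Δᶜ hΔc
      obtain ⟨hgA, hgL, hg6⟩ := gen g hg
      have hcompl : g • Δᶜ = (g • Δ)ᶜ := Set.smul_set_compl
      refine ⟨⟨g, hgA⟩, hgL, ?_, ?_⟩
      · intro heq
        apply hmove
        rw [hcompl]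
        exact congrArg compl heq
      · intro heq
        have h1 : g • (6 : Fin 8) ∈ g • Δᶜ := Set.smul_mem_smul_set h6
        rw [Perm.smul_def, hg6, hcompl] at h1
        apply h1
        have : (6 : Fin 8) ∈ Δᶜ := h6
        have h2' : (((⟨g, hgA⟩ : alternatingGroup (Fin 8)) : Perm (Fin 8)) • Δ) = Δᶜ := heq
        change (6 : Fin 8) ∈ g • Δ
        rw [show g • Δ = Δᶜ from h2']
        exact this

end Cfsg.Agent.Lib.Helper4.HDX8
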