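import Mathlib
import Cfsg.Agent.Lib.Helper96.HallDStmt
import Cfsg.Agent.Lib.Helper4.HDCore

/-!
# S2534 piece XP: for a prime `n ≥ 5`, a `{2, 3}`-subgroup of `A_n` without fixed points
-/

set_option autoImplicit false

namespace Cfsg.Agent.Lib.Helper4.HDXP

open Equiv Cfsg.Agent.Lib.Helper96.HallConjStmt Cfsg.Agent.Lib.Helper96.HallDStmt
open Cfsg.Agent.Lib.Helper4.HDCore
open scoped Pointwise

theorem main : Cfsg.Agent.Lib.Helper96.HallDStmt.XP' := by
  intro hPINV n hn hn5 π h2 h3
  have hodd : n % 2 = 1 := by
    rcases hn.eq_two_or_odd with h | h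
    · omega
    · exact h
  -- fibres `{0,1}, {2,3}, …, {n-5,n-4}, {n-3,n-2,n-1}`
  let f : Fin n → ℕ := fun i => min (i.val / 2) ((n - 3) / 2)
  have hf : ∀ i : Fin n, f i = min (i.val / 2) ((n - 3) / 2) := fun i => rfl
  refine ⟨(F f).subgroupOf (alternatingGroup (Fin n)), ?_, ?_⟩
  · apply piSub_F hPINV f ?_ π h2 h3
    · intro g hg
      exact Subgroup.mem_subgroupOf.1 hg
    · intro j
      have hsub : ∀ x ∈ f ⁻¹' {j},
          (fun x : Fin n => x.val) x ∈ ((Finset.Icc (2 * j) (2 * j + 2) : Finset ℕ) : Set ℕ) := by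
        intro x hx
        have hx' : min (x.val / 2) ((n - 3) / 2) = j := hx
        have hxn := x.2
        simp only [Finset.coe_Icc, Set.mem_Icc]
        omega
      have hle := Set.ncard_le_ncard_of_injOn (fun x : Fin n => x.val) hsub
        (fun a _ b _ h => Fin.ext h) (Finset.finite_toSet _)
      rw [Set.ncard_coe_finset, Nat.card_Icc] at hle
      omega
  · intro x
    have key : ∀ a b c d : Fin n, a ≠ b → c ≠ d → f a = f b → f c = f d → a ≠ c → a ≠ d →
        ∃ g ∈ (F f).subgroupOf (alternatingGroup (Fin n)), (g : Perm (Fin n)) • a ≠ a := by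
      intro a b c d hab hcd hfab hfcd hac had
      have hgA : swap a b * swap c d ∈ alternatingGroup (Fin n) := by
        rw [Perm.mem_alternatingGroup, Perm.sign_mul, Perm.sign_swap hab, Perm.sign_swap hcd]
        rfl
      refine ⟨⟨swap a b * swap c d, hgA⟩, ?_, ?_⟩
      · rw [Subgroup.mem_subgroupOf]
        exact (F f).mul_mem (swap_mem_F f a b hfab) (swap_mem_F f c d hfcd)
      · show (swap a b * swap c d) a ≠ a
        rw [Perm.mul_apply, swap_apply_of_ne_of_ne hac had, swap_apply_left]
        exact hab.symm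
    have hxn := x.2
    have key2 : ∀ b : Fin n, x ≠ b → f x = f b →
        ∃ g ∈ (F f).subgroupOf (alternatingGroup (Fin n)), (g : Perm (Fin n)) • x ≠ x := by
      intro b hxb hfb
      by_cases hx2 : 2 ≤ x.val
      · refine key x b ⟨0, by omega⟩ ⟨1, by omega⟩ hxb ?_ hfb ?_ ?_ ?_
        · intro h; have := congrArg Fin.val h; simp at this
        · rw [hf, hf]; show min (0 / 2) ((n - 3) / 2) = min (1 / 2) ((n - 3) / 2); omega
        · intro h; have := congrArg Fin.val h; simp at this; omega
        · intro h; have := congrArg Fin.val h; simp at this; omega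
      · refine key x b ⟨n - 2, by omega⟩ ⟨n - 1, by omega⟩ hxb ?_ hfb ?_ ?_ ?_
        · intro h; have := congrArg Fin.val h; simp at this; omega
        · rw [hf, hf]
          show min ((n - 2) / 2) ((n - 3) / 2) = min ((n - 1) / 2) ((n - 3) / 2)
          omega
        · intro h; have := congrArg Fin.val h; simp at this; omega
        · intro h; have := congrArg Fin.val h; simp at this; omega
    by_cases hxodd : x.val % 2 = 1
    · refine key2 ⟨x.val - 1, by omega⟩ ?_ ?_
      · intro h; have := congrArg Fin.val h; simp at this; omega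
      · rw [hf, hf]
        show min (x.val / 2) ((n - 3) / 2) = min ((x.val - 1) / 2) ((n - 3) / 2)
        omega
    · by_cases hlast : x.val + 1 < n
      · refine key2 ⟨x.val + 1, hlast⟩ ?_ ?_
        · intro h; have := congrArg Fin.val h; simp at this
        · rw [hf, hf]
          show min (x.val / 2) ((n - 3) / 2) = min ((x.val + 1) / 2) ((n - 3) / 2)
          omega
      · refine key2 ⟨x.val - 1, by omega⟩ ?_ ?_
        · intro h; have := congrArg Fin.val h; simp at this; omega
        · rw [hf, hf]
          show min (x.val / 2) ((n - 3) / 2) = min ((x.val - 1) / 2) ((n - 3) / 2)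
          omega

end Cfsg.Agent.Lib.Helper4.HDXP
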