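import Mathlib
import Cfsg.Agent.Lib.Helper68.MixStmt
import Cfsg.Agent.Lib.Helper78.Fitting
import Cfsg.Agent.S0044
import Cfsg.Agent.S0144

/-!
# S4017 piece FIT: in a `{2, p}`-group an abelian Sylow `p`-subgroup centralizing every normal
`2`-subgroup is normal
-/

set_option autoImplicit false

namespace Cfsg.Agent.Lib.Helper4.MixFIT

open Cfsg.Agent.Lib.Helper68.MixStmt Cfsg.Agent.Lib.Helper78.Fitting

universe u

theorem main : Cfsg.Agent.Lib.Helper68.MixStmt.FIT.{u} := by
  intro M _ _ p W hp hp2 hPQ hWab hcent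
  have hpF : Fact p.Prime := ⟨hp⟩
  have hsolv : Group.IsSolvable M :=
    Cfsg.Agent.S0144.main p 2 hp Nat.prime_two (Nat.card M) M rfl hPQ
  -- every `O_r(M)` centralizes `W`
  have h1 : (⨆ r : Nat.Primes, Cfsg.pCore (r : ℕ) M) ≤
      Subgroup.centralizer ((W : Subgroup M) : Set M) := by
    apply iSup_le
    intro r
    have hrF : Fact (r : ℕ).Prime := ⟨r.2⟩
    by_cases hr2 : (r : ℕ) = 2
    · intro o ho
      rw [Subgroup.mem_centralizer_iff]
      intro w hw
      have hpg : IsPGroup 2 (Cfsg.pCore (r : ℕ) M) := by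
        have h := pCore_isPGroup (G := M) (r : ℕ)
        intro x
        obtain ⟨k, hk⟩ := h x
        have e : (r : ℕ) ^ k = 2 ^ k := by rw [hr2]
        rw [e] at hk
        exact ⟨k, hk⟩
      exact hcent (Cfsg.pCore (r : ℕ) M) (pCore_normal _) hpg w hw o ho
    · by_cases hrp : (r : ℕ) = p
      · intro o ho
        have hoW : o ∈ (W : Subgroup M) := by
          have h := pCore_le_sylow (G := M) W
          rw [hrp] at ho
          exact h ho
        rw [Subgroup.mem_centralizer_iff]
        intro w hw
        have h := hWab.is_comm.comm (⟨w, hw⟩ : W) ⟨o, hoW⟩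
        exact congrArg Subtype.val h
      · have hnd : ¬ (r : ℕ) ∣ Nat.card M := by
          intro hd
          rcases hPQ r r.2 hd with h | h
          · exact hrp h
          · exact hr2 h
        rw [pCore_eq_bot_of_not_dvd (r : ℕ) hnd]
        exact bot_le
  have hWF : (W : Subgroup M) ≤ Subgroup.centralizer (Cfsg.fittingSubgroup M : Set M) := by
    intro w hw
    rw [Subgroup.mem_centralizer_iff]
    intro f hf
    have hf' : f ∈ ⨆ r : Nat.Primes, Cfsg.pCore (r : ℕ) M := by
      rw [← fitting_eq_iSup_pCore]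
      exact hf
    exact ((Subgroup.mem_centralizer_iff.1 (h1 hf')) w hw).symm
  have hWleF : (W : Subgroup M) ≤ Cfsg.fittingSubgroup M := hWF.trans Cfsg.Agent.S0044.result
  have hFn : (Cfsg.fittingSubgroup M).Normal := fitting_normal
  have hnil : Group.IsNilpotent (Cfsg.fittingSubgroup M) := fitting_isNilpotent
  have hPn : ((W.subtype hWleF : Sylow p (Cfsg.fittingSubgroup M)) :
      Subgroup (Cfsg.fittingSubgroup M)).Normal := inferInstance
  have hchar : ((W.subtype hWleF : Sylow p (Cfsg.fittingSubgroup M)) :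
      Subgroup (Cfsg.fittingSubgroup M)).Characteristic :=
    Sylow.characteristic_of_normal (W.subtype hWleF) hPn
  have hnorm : (((W.subtype hWleF : Sylow p (Cfsg.fittingSubgroup M)) :
      Subgroup (Cfsg.fittingSubgroup M)).map (Cfsg.fittingSubgroup M).subtype).Normal :=
    ConjAct.normal_of_characteristic_of_normal
  have heq : ((W.subtype hWleF : Sylow p (Cfsg.fittingSubgroup M)) :
      Subgroup (Cfsg.fittingSubgroup M)).map (Cfsg.fittingSubgroup M).subtype =
      (W : Subgroup M) := by
    rw [Sylow.coe_subtype, Subgroup.subgroupOf_map_subtype, inf_of_le_left hWleF]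
  rw [← heq]
  exact hnorm

end Cfsg.Agent.Lib.Helper4.MixFIT
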