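import Mathlib
import Cfsg.Agent.Lib.Helper41.OMStmt

/-!
# S5978 / MBR (call by helper41)

The Gram matrix `Gm d a b` of the polar form of `Cfsg.quadFormMinus (d - 1) F a b`:
symmetry, determinant, the isometry group in matrix terms, self-adjointness in matrix terms
(the minus-type versions of `Helper50.OFOBR`, `OFSABR`, `OFDETS0`).
-/

set_option autoImplicit false

namespace Cfsg.Agent.Lib.Helper4.OMMBR

open Matrix
open Cfsg.Agent.Lib.Helper41.OMStmt

universe u

variable {F : Type u} [Field F] {d : ℕ}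

/-- The polar form in coordinates. -/
theorem dot_Gm (a b : F) (u v : Im d → F) :
    u ⬝ᵥ (Gm d a b *ᵥ v) =
      ∑ i : Fin (d - 1), (u (.inl (.inl i)) * v (.inl (.inr i)) +
        u (.inl (.inr i)) * v (.inl (.inl i))) +
      (2 * u (.inr 0) * v (.inr 0) + a * (u (.inr 0) * v (.inr 1) + u (.inr 1) * v (.inr 0))
          + 2 * b * u (.inr 1) * v (.inr 1)) := by
  unfold Gm
  rw [Matrix.fromBlocks_mulVec, Matrix.fromBlocks_mulVec]
  simp only [dotProduct, Fintype.sum_sum_type, Sum.elim_inl, Sum.elim_inr, Matrix.zero_mulVec,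
    Matrix.one_mulVec, zero_add, add_zero, Function.comp_apply, Finset.sum_add_distrib,
    Fin.sum_univ_two, Matrix.mulVec, Matrix.of_apply, Matrix.cons_val_zero,
    Matrix.cons_val_one, Matrix.cons_val', Matrix.cons_val_fin_one]
  ring

theorem quad_add (a b : F) (u v : Im d → F) :
    Cfsg.quadFormMinus (d - 1) F a b (u + v) =
      Cfsg.quadFormMinus (d - 1) F a b u + Cfsg.quadFormMinus (d - 1) F a b v +
        u ⬝ᵥ (Gm d a b *ᵥ v) := by
  rw [dot_Gm]
  unfold Cfsg.quadFormMinus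
  simp only [Pi.add_apply]
  have hs : ∑ i : Fin (d - 1), (u (.inl (.inl i)) + v (.inl (.inl i))) *
        (u (.inl (.inr i)) + v (.inl (.inr i))) =
      ∑ i : Fin (d - 1), u (.inl (.inl i)) * u (.inl (.inr i)) +
      ∑ i : Fin (d - 1), v (.inl (.inl i)) * v (.inl (.inr i)) +
      ∑ i : Fin (d - 1), (u (.inl (.inl i)) * v (.inl (.inr i)) +
        u (.inl (.inr i)) * v (.inl (.inl i))) := by
    rw [← Finset.sum_add_distrib, ← Finset.sum_add_distrib]
    apply Finset.sum_congr rfl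
    intro i _
    ring
  rw [hs]
  ring

theorem dot_self (a b : F) (u : Im d → F) :
    u ⬝ᵥ (Gm d a b *ᵥ u) = 2 * Cfsg.quadFormMinus (d - 1) F a b u := by
  rw [dot_Gm]
  unfold Cfsg.quadFormMinus
  have hs : ∑ i : Fin (d - 1), (u (.inl (.inl i)) * u (.inl (.inr i)) +
        u (.inl (.inr i)) * u (.inl (.inl i))) =
      2 * ∑ i : Fin (d - 1), u (.inl (.inl i)) * u (.inl (.inr i)) := by
    rw [Finset.mul_sum]
    apply Finset.sum_congr rfl
    intro i _
    ring
  rw [hs]
  ring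

theorem polar_eq (a b : F) (u v : Im d → F) :
    QuadraticMap.polar (Cfsg.quadFormMinus (d - 1) F a b) u v = u ⬝ᵥ (Gm d a b *ᵥ v) := by
  unfold QuadraticMap.polar
  rw [quad_add]
  ring

theorem dot_conj {ι : Type} [Fintype ι] (S g : Matrix ι ι F) (u v : ι → F) :
    (g *ᵥ u) ⬝ᵥ (S *ᵥ (g *ᵥ v)) = u ⬝ᵥ ((gᵀ * S * g) *ᵥ v) := by
  rw [← Matrix.vecMul_transpose, ← Matrix.dotProduct_mulVec, Matrix.mulVec_mulVec,
    Matrix.mulVec_mulVec, Matrix.mul_assoc]

theorem mem_iff (a b : F) (g : GL (Im d) F) :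
    g ∈ Cfsg.isometryGroup F (Cfsg.quadFormMinus (d - 1) F a b) ↔
      ∀ u : Im d → F, Cfsg.quadFormMinus (d - 1) F a b (g.val *ᵥ u) =
        Cfsg.quadFormMinus (d - 1) F a b u := by
  constructor
  · intro h u
    exact h u u
  · intro h u v
    exact h u

theorem det_hyp (n : ℕ) :
    (Matrix.fromBlocks (0 : Matrix (Fin n) (Fin n) F) (1 : Matrix (Fin n) (Fin n) F)
      (1 : Matrix (Fin n) (Fin n) F) (0 : Matrix (Fin n) (Fin n) F)).det = (-1) ^ n := by
  have h1 : (Matrix.fromBlocks (1 : Matrix (Fin n) (Fin n) F) 0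
      (1 : Matrix (Fin n) (Fin n) F) (1 : Matrix (Fin n) (Fin n) F)) *
      Matrix.fromBlocks (0 : Matrix (Fin n) (Fin n) F) (1 : Matrix (Fin n) (Fin n) F)
        (1 : Matrix (Fin n) (Fin n) F) (0 : Matrix (Fin n) (Fin n) F) =
      Matrix.fromBlocks (0 : Matrix (Fin n) (Fin n) F) (1 : Matrix (Fin n) (Fin n) F)
        (1 : Matrix (Fin n) (Fin n) F) (1 : Matrix (Fin n) (Fin n) F) := by
    rw [Matrix.fromBlocks_multiply]
    simp
  have h2 : (Matrix.fromBlocks (1 : Matrix (Fin n) (Fin n) F) 0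
      (1 : Matrix (Fin n) (Fin n) F) (1 : Matrix (Fin n) (Fin n) F)).det = 1 := by
    rw [Matrix.det_fromBlocks_zero₁₂]; simp
  have h3 : (Matrix.fromBlocks (0 : Matrix (Fin n) (Fin n) F) (1 : Matrix (Fin n) (Fin n) F)
        (1 : Matrix (Fin n) (Fin n) F) (1 : Matrix (Fin n) (Fin n) F)).det = (-1) ^ n := by
    rw [Matrix.det_fromBlocks_one₂₂]
    simp [Matrix.det_neg]
  have h4 := congrArg Matrix.det h1
  rw [Matrix.det_mul, h2, one_mul, h3] at h4
  exact h4

/-- `MBR` of the S5978 plan. -/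
theorem main : Cfsg.Agent.Lib.Helper41.OMStmt.MBr.{u} := by
  intro F _ h2 d a b
  refine ⟨?_, ?_, ?_, ?_⟩
  · unfold Gm
    rw [Matrix.fromBlocks_transpose, Matrix.fromBlocks_transpose]
    have h22 : (!![2, a; a, 2 * b] : Matrix (Fin 2) (Fin 2) F)ᵀ = !![2, a; a, 2 * b] := by
      ext i j
      fin_cases i <;> fin_cases j <;> rfl
    rw [h22]
    simp
  · unfold Gm
    rw [Matrix.det_fromBlocks_zero₂₁, Matrix.det_fin_two_of, det_hyp]
    ring
  · intro g
    rw [mem_iff]
    constructor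
    · intro h
      have hB : ∀ u v : Im d → F,
          u ⬝ᵥ ((g.valᵀ * Gm d a b * g.val) *ᵥ v) = u ⬝ᵥ (Gm d a b *ᵥ v) := by
        intro u v
        rw [← dot_conj]
        have h1 := quad_add a b (g.val *ᵥ u) (g.val *ᵥ v)
        rw [← Matrix.mulVec_add, h, h u, h v, quad_add a b u v] at h1
        exact (add_left_cancel h1).symm
      ext i j
      have := hB (Pi.single i 1) (Pi.single j 1)
      simpa using this
    · intro h u
      have h1 := dot_self a b (g.val *ᵥ u)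
      rw [dot_conj, h, dot_self] at h1
      exact (mul_left_cancel₀ h2 h1).symm
  · intro K hK k hk
    have hB : ∀ u v : Im d → F,
        u ⬝ᵥ ((Gm d a b * k) *ᵥ v) = u ⬝ᵥ ((kᵀ * Gm d a b) *ᵥ v) := by
      intro u v
      have h1 := hK k hk u v
      rw [polar_eq, polar_eq] at h1
      rw [← Matrix.mulVec_mulVec, ← h1, ← Matrix.vecMul_transpose, ← Matrix.dotProduct_mulVec,
        Matrix.mulVec_mulVec]
    ext i j
    have := hB (Pi.single i 1) (Pi.single j 1)
    simpa using this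

end Cfsg.Agent.Lib.Helper4.OMMBR
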