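import Mathlib
import Cfsg.Agent.Lib.Helper45.OMiStmt
import Cfsg.Agent.Lib.Helper4.GenCount

/-!
# S5991 piece FIXCONGM (call by helper45): the fixed point congruence for an isometry of order
`r` of the minus form acting on the members (instance of `Helper4.GenCount.fixcong`).
-/

set_option autoImplicit false

namespace Cfsg.Agent.Lib.Helper4.OMiFIXCONGM

open Cfsg.Agent.Lib.Helper45.OMiStmt

universe u

theorem main : Cfsg.Agent.Lib.Helper45.OMiStmt.FixCongM.{u} := by
  intro F _ _ d m a b W₀ r _ x hx hxr
  exact Cfsg.Agent.Lib.Helper4.GenCount.fixcong (Cfsg.quadFormMinus (d - 1) F a b) m W₀ r x hx hxr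

end Cfsg.Agent.Lib.Helper4.OMiFIXCONGM
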