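import Mathlib
import Cfsg.Agent.Lib.Helper45.OMiStmt
import Cfsg.Agent.Lib.Helper4.GenCount
import Cfsg.Agent.Lib.Helper44.NegPairs

/-!
# S5991 piece UCARDM (call by helper45): `r` does not divide the number of members inside a small
nondegenerate subspace `U` of the minus space (instance of `Helper4.GenCount.ucard`; the member
inside `U` comes from `OddSubM` with `E = ⊥`).
-/

set_option autoImplicit false

namespace Cfsg.Agent.Lib.Helper4.OMiUCARDM

open Cfsg.Agent.Lib.Helper45.OMiStmt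
open Cfsg.Agent.Lib.Helper44.NegPairs (minusQ)

universe u

theorem ndeg_bot' {F : Type u} [Field F] (d : ℕ) (a b : F) :
    NDegM d F a b (⊥ : Submodule F (M d → F)) := by
  intro w hw hw0
  exact absurd ((Submodule.mem_bot F).mp hw) hw0

theorem main (hAC : Cfsg.Agent.Lib.Helper94.OPStmt.ACardI.{u}) (hOS : OddSubM.{u}) :
    UCardM.{u} := by
  intro F _ _ p _ _ hodd d m a b hab hmodd W₀ hW₀ hW₀nd r _ hr2 hrp U hU hmU hUc
  have hb : Module.finrank F (⊥ : Submodule F (M d → F)) = 0 := finrank_bot F (M d → F)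
  have hex : ∃ W : Submodule F (M d → F),
      Cfsg.Agent.Lib.Helper4.GenCount.MemG (⇑(minusQ (d - 1) F a b)) m W₀ W ∧ W ≤ U := by
    obtain ⟨W₁, hW₁, hE⟩ := hOS F hodd d m a b hab hmodd W₀ hW₀ hW₀nd ⊥ U (ndeg_bot' d a b) hU
      (fun u hu v _ => by
        rw [(Submodule.mem_bot F).mp hu]
        exact QuadraticMap.polar_zero_left (minusQ (d - 1) F a b) v)
      (by rw [hb]; exact Even.zero) (by rw [hb]; exact hmodd.pos) (by rw [hb]; simpa using hmU)
    rw [bot_sup_eq] at hE
    exact ⟨W₁, hE, hW₁⟩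
  exact Cfsg.Agent.Lib.Helper4.GenCount.ucard hAC p hodd (minusQ (d - 1) F a b) m W₀ hW₀ r hr2 hrp
    U hU hUc hex

end Cfsg.Agent.Lib.Helper4.OMiUCARDM
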