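import Mathlib
import Cfsg.Agent.Lib.Helper94.OPStmt

/-!
# S5989 piece FIXCONGP (call by helper94): the fixed point congruence for an isometry of
order `r` of the plus form acting on the nondegenerate `m`-spaces isometric to `W₀`
-/

set_option autoImplicit false

namespace Cfsg.Agent.Lib.Helper4.OPFIXCONGP

open Cfsg.Agent.Lib.Helper94.OPStmt
open scoped Matrix

universe u

/-- the linear equivalence given by an invertible matrix -/
noncomputable def glEquiv {F : Type u} [Field F] {d : ℕ}
    (g : Matrix.GeneralLinearGroup (P d) F) : (P d → F) ≃ₗ[F] (P d → F) :=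
  LinearEquiv.ofLinear (Matrix.toLin' (g : Matrix (P d) (P d) F))
    (Matrix.toLin' ((g⁻¹ : Matrix.GeneralLinearGroup (P d) F) : Matrix (P d) (P d) F))
    (by rw [← Matrix.toLin'_mul, ← Units.val_mul, mul_inv_cancel, Units.val_one,
      Matrix.toLin'_one])
    (by rw [← Matrix.toLin'_mul, ← Units.val_mul, inv_mul_cancel, Units.val_one,
      Matrix.toLin'_one])

theorem glEquiv_coe {F : Type u} [Field F] {d : ℕ} (g : Matrix.GeneralLinearGroup (P d) F) :
    ((glEquiv g : (P d → F) ≃ₗ[F] (P d → F)) : (P d → F) →ₗ[F] (P d → F)) =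
      Matrix.toLin' (g : Matrix (P d) (P d) F) := rfl

theorem glEquiv_apply {F : Type u} [Field F] {d : ℕ} (g : Matrix.GeneralLinearGroup (P d) F)
    (v : P d → F) : glEquiv g v = (g : Matrix (P d) (P d) F) *ᵥ v := by
  show Matrix.toLin' (g : Matrix (P d) (P d) F) v = _
  rw [Matrix.toLin'_apply]

/-- an isometry maps members to members -/
theorem mem_map {F : Type u} [Field F] {d : ℕ} (m : ℕ) (W₀ : Submodule F (P d → F))
    (e : (P d → F) ≃ₗ[F] (P d → F))
    (he : ∀ v, Cfsg.quadFormPlus d F (e v) = Cfsg.quadFormPlus d F v)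
    (W : Submodule F (P d → F)) (hW : Mem d F m W₀ W) :
    Mem d F m W₀ (W.map (e : (P d → F) →ₗ[F] (P d → F))) := by
  have hpolar : ∀ a b, QuadraticMap.polar (Cfsg.quadFormPlus d F) (e a) (e b) =
      QuadraticMap.polar (Cfsg.quadFormPlus d F) a b := by
    intro a b
    simp only [QuadraticMap.polar, ← map_add, he]
  have hfr : Module.finrank F ↥(W.map (e : (P d → F) →ₗ[F] (P d → F))) = Module.finrank F ↥W :=
    LinearEquiv.finrank_map_eq e W
  refine ⟨hfr.trans hW.1, ?_, ?_⟩
  · rintro x ⟨w, hw, rfl⟩ hx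
    have hw0 : w ≠ 0 := by
      rintro rfl
      apply hx
      simp
    obtain ⟨⟨a, ha, ha'⟩, ⟨b, hb, hb'⟩⟩ := hW.2.1 w hw hw0
    refine ⟨⟨e a, ⟨a, ha, rfl⟩, ?_⟩, ⟨e b, ⟨b, hb, rfl⟩, ?_⟩⟩
    · show QuadraticMap.polar (Cfsg.quadFormPlus d F) (e a) (e w) ≠ 0
      rw [hpolar]
      exact ha'
    · show QuadraticMap.polar (Cfsg.quadFormPlus d F) (e w) (e b) ≠ 0
      rw [hpolar]
      exact hb'
  · obtain ⟨e₀, he₀⟩ := hW.2.2
    refine ⟨(e.submoduleMap W).symm.trans e₀, ?_⟩
    intro w'
    have h1 : ((e.submoduleMap W) ((e.submoduleMap W).symm w') : P d → F) =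
        e (((e.submoduleMap W).symm w' : ↥W) : P d → F) := rfl
    rw [LinearEquiv.apply_symm_apply] at h1
    rw [LinearEquiv.trans_apply, he₀, h1, he]

theorem main : Cfsg.Agent.Lib.Helper94.OPStmt.FixCongP.{u} := by
  intro F _ _ d m W₀ r _ x hx hxr
  classical
  have hiso : ∀ g : Matrix.GeneralLinearGroup (P d) F,
      g ∈ Cfsg.isometryGroup F (Cfsg.quadFormPlus d F) →
      ∀ v, Cfsg.quadFormPlus d F (glEquiv g v) = Cfsg.quadFormPlus d F v := by
    intro g hg v
    rw [glEquiv_apply]
    exact hg v v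
  have hfin : Finite (Submodule F (P d → F)) := inferInstance
  let f : Function.End {W : Submodule F (P d → F) // Mem d F m W₀ W} := fun s =>
    ⟨s.1.map (Matrix.toLin' (x : Matrix (P d) (P d) F)),
      mem_map m W₀ (glEquiv x) (hiso x hx) s.1 s.2⟩
  have hf1 : ∀ s, (f s).1 = s.1.map (Matrix.toLin' (x : Matrix (P d) (P d) F)) := fun s => rfl
  have hpow : ∀ (k : ℕ) (s : {W : Submodule F (P d → F) // Mem d F m W₀ W}),
      ((f ^ k) s).1 = s.1.map
        (Matrix.toLin' ((x ^ k : Matrix.GeneralLinearGroup (P d) F) : Matrix (P d) (P d) F)) := by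
    intro k
    induction k with
    | zero =>
      intro s
      rw [pow_zero, pow_zero, Units.val_one, Matrix.toLin'_one, Submodule.map_id]
      rfl
    | succ k ih =>
      intro s
      rw [pow_succ', pow_succ', Units.val_mul, Matrix.toLin'_mul, Submodule.map_comp, ← ih s]
      rfl
  have hfr : f ^ r ^ 1 = 1 := by
    rw [pow_one]
    funext s
    apply Subtype.ext
    rw [hpow, hxr, Units.val_one, Matrix.toLin'_one, Submodule.map_id]
    rfl
  have hmod := Equiv.Perm.card_fixedPoints_modEq (f := f) (p := r) (n := 1) hfr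
  have hfix_iff : ∀ s : {W : Submodule F (P d → F) // Mem d F m W₀ W},
      f s = s ↔ StabP (x : Matrix (P d) (P d) F) s.1 := by
    intro s
    constructor
    · intro h
      have h1 : (f s).1 = s.1 := congrArg Subtype.val h
      rw [hf1] at h1
      exact le_of_eq h1
    · intro h
      apply Subtype.ext
      rw [hf1]
      apply Submodule.eq_of_le_of_finrank_eq h
      rw [← glEquiv_coe]
      exact LinearEquiv.finrank_map_eq (glEquiv x) s.1
  have hequiv : Nat.card (Function.fixedPoints f) =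
      Nat.card {W : Submodule F (P d → F) //
        Mem d F m W₀ W ∧ StabP (x : Matrix (P d) (P d) F) W} := by
    apply Nat.card_congr
    exact
      { toFun := fun s => ⟨s.1.1, s.1.2, (hfix_iff s.1).1 s.2⟩
        invFun := fun W => ⟨⟨W.1, W.2.1⟩, (hfix_iff ⟨W.1, W.2.1⟩).2 W.2.2⟩
        left_inv := fun s => rfl
        right_inv := fun W => rfl }
  rw [← hequiv, Nat.card_eq_fintype_card, Nat.card_eq_fintype_card]
  exact hmod

end Cfsg.Agent.Lib.Helper4.OPFIXCONGP
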