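import Mathlib
import Cfsg.Agent.Lib.Helper75.KleinFour2
import Cfsg.Agent.Lib.CT.ClassMult

/-!
# Section norms for the principal 2-block: a 2-element with 2-nilpotent centralizer and a central
involution

Generalizations of `Helper75.KleinFour2.secRes_eq`, `norm_secRes`, `sum_sq_eq_four` from involutions
to arbitrary nontrivial 2-elements `a` whose centralizer has a normal subgroup `K` of odd order and
index 4, and the section norm at a central involution.
-/

set_option autoImplicit false

namespace Cfsg.Agent.Lib.Helper4.Q8BlockA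

open Cfsg Cfsg.Agent.Lib.CT.Wedderburn Cfsg.Agent.Lib.Helper77.LocalRing
  Cfsg.Agent.Lib.CT.ThirdMain Cfsg.Agent.Lib.Helper75.Section Cfsg.Agent.Lib.Helper75.Section2
  Cfsg.Agent.Lib.Helper75.Section3 Cfsg.Agent.Lib.Helper75.PNilBlock
  Cfsg.Agent.Lib.Helper75.KleinFour2
open scoped ComplexConjugate

universe u
variable {G : Type u} [Group G]

/-- A central element acts as a scalar on an irreducible character. -/
theorem central_mul [Finite G] {χ : G → ℂ} (hχ : IsIrrCharacter G χ) (t : G)
    (htc : ∀ g : G, g * t = t * g) (x : G) : χ (x * t) = χ x * χ t / χ 1 := by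
  classical
  have := Fintype.ofFinite G
  have h := Cfsg.Agent.Lib.CT.ClassMult.irr_schur_average hχ x t
  have h1 : ∀ g : G, χ (x * (g * t * g⁻¹)) = χ (x * t) := by
    intro g
    rw [htc g, mul_assoc, mul_inv_cancel, mul_one]
  rw [Finset.sum_congr rfl (fun g _ => h1 g), Finset.sum_const, Finset.card_univ, nsmul_eq_mul,
    ← Nat.card_eq_fintype_card] at h
  have hne : (Nat.card G : ℂ) ≠ 0 := Nat.cast_ne_zero.mpr Nat.card_pos.ne'
  have h2 : (Nat.card G : ℂ) * χ (x * t) = (Nat.card G : ℂ) * (χ x * χ t / χ 1) := by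
    rw [h]; ring
  exact mul_left_cancel₀ hne h2

/-- The section restriction at the 2-element `a` of a character of the principal block is constant
on the normal 2-complement `K` of `C_G(a)` and vanishes elsewhere. -/
theorem secRes_eq [Finite G] (M : Ideal AlgInt) (hM : IsPModular 2 M) (t : G)
    (htp : ∃ k : ℕ, orderOf t = 2 ^ k) (K : Subgroup (Subgroup.centralizer ({t} : Set G)))
    [K.Normal]
    (hK : ¬ 2 ∣ Nat.card K) (hKi : K.index = 4) [DecidablePred (· ∈ K)] (χ : IrrCharacter G)
    (hχ : χ ∈ principalBlock M G) (c : Subgroup.centralizer ({t} : Set G)) :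
    secRes 2 t (χ : G → ℂ) c = if c ∈ K then (χ : G → ℂ) t else 0 := by
  classical
  haveI : Fact (Nat.Prime 2) := ⟨Nat.prime_two⟩
  have hMp := isPrime_of_isPModular hM
  have hQ : IsPGroup 2 (Subgroup.centralizer ({t} : Set G) ⧸ K) :=
    IsPGroup.of_card (n := 2) (by rw [← Subgroup.index_eq_card, hKi]; rfl)
  have := Fintype.ofFinite (Subgroup.centralizer ({t} : Set G))
  have := finite_irrCharacter (Subgroup.centralizer ({t} : Set G))
  have := Fintype.ofFinite (IrrCharacter (Subgroup.centralizer ({t} : Set G)))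
  have hP : IsPBlock M (principalBlock M G) := ⟨triv G, rfl⟩
  by_cases hc : c ∈ K
  · rw [if_pos hc]
    have h1 : ¬ 2 ∣ orderOf (1 : Subgroup.centralizer ({t} : Set G)) := by
      rw [orderOf_one]; norm_num
    have e1 := secRes_eq_sum 2 M hM t htp (principalBlock M G) hP χ hχ c
    have e2 := secRes_eq_sum 2 M hM t htp (principalBlock M G) hP χ hχ 1
    have e3 : secRes 2 t (χ : G → ℂ) c = secRes 2 t (χ : G → ℂ) 1 := by
      rw [e1, e2]
      refine Finset.sum_congr rfl fun ψ _ => ?_
      by_cases hψ : ψ ∈ secT M t (principalBlock M G)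
      · rw [if_pos hψ, if_pos hψ]
        have hψ' : ψ ∈ principalBlock M (Subgroup.centralizer ({t} : Set G)) := by
          rw [← secT_principal 2 M hM t htp]; exact hψ
        rw [apply_eq_of_mem_principalBlock 2 M hM K hK ψ hψ' c hc]
      · rw [if_neg hψ, if_neg hψ]
    rw [e3, secRes_of_regular 2 t _ h1]
    simp
  · rw [if_neg hc]
    apply secRes_of_singular
    by_contra hreg
    exact hc (mem_of_pRegular Nat.prime_two K hQ c hreg)

/-- The norm of the section restriction at `a`. -/
theorem norm_secRes [Finite G] (M : Ideal AlgInt) (hM : IsPModular 2 M) (t : G)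
    (htp : ∃ k : ℕ, orderOf t = 2 ^ k) (K : Subgroup (Subgroup.centralizer ({t} : Set G)))
    [K.Normal]
    (hK : ¬ 2 ∣ Nat.card K) (hKi : K.index = 4)
    [Fintype (Subgroup.centralizer ({t} : Set G))] (χ : IrrCharacter G)
    (hχ : χ ∈ principalBlock M G) :
    classInner (secRes 2 t (χ : G → ℂ)) (secRes 2 t (χ : G → ℂ)) =
      (χ : G → ℂ) t * conj ((χ : G → ℂ) t) / 4 := by
  classical
  unfold classInner
  have h1 : ∀ c : Subgroup.centralizer ({t} : Set G),
      secRes 2 t (χ : G → ℂ) c * conj (secRes 2 t (χ : G → ℂ) c) =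
        if c ∈ K then (χ : G → ℂ) t * conj ((χ : G → ℂ) t) else 0 := by
    intro c
    rw [secRes_eq M hM t htp K hK hKi χ hχ c]
    split_ifs <;> simp
  rw [Finset.sum_congr rfl (fun c _ => h1 c), Finset.sum_ite, Finset.sum_const_zero, add_zero,
    Finset.sum_const, nsmul_eq_mul]
  have := Fintype.ofFinite K
  have hcardK : (Finset.univ.filter
      (fun c : Subgroup.centralizer ({t} : Set G) => c ∈ K)).card = Nat.card K := by
    rw [Nat.card_eq_fintype_card]
    exact (Fintype.card_of_subtype _ (by simp)).symm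
  have hcardH : (Nat.card (Subgroup.centralizer ({t} : Set G)) : ℂ) = (Nat.card K : ℂ) * 4 := by
    rw [← Subgroup.card_mul_index K, hKi]
    push_cast
    ring
  have hne : (Nat.card K : ℂ) ≠ 0 := Nat.cast_ne_zero.mpr Nat.card_pos.ne'
  rw [hcardK, hcardH]
  field_simp

/-- The squares of the values at `a` of the characters of the principal block sum to 4. -/
theorem sum_sq_eq_four [Finite G] (M : Ideal AlgInt) (hM : IsPModular 2 M) (t : G)
    (htp : ∃ k : ℕ, orderOf t = 2 ^ k) (ht1 : t ≠ 1)
    (K : Subgroup (Subgroup.centralizer ({t} : Set G))) [K.Normal]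
    (hK : ¬ 2 ∣ Nat.card K) (hKi : K.index = 4) :
    ∑ᶠ ζ ∈ principalBlock M G, ‖(ζ : G → ℂ) t‖ ^ 2 = 4 := by
  haveI : Fact (Nat.Prime 2) := ⟨Nat.prime_two⟩
  have h1 := (Cfsg.Agent.S0947.result 2 M hM t htp ht1
    (1 : Subgroup.centralizer ({t} : Set G)) (by rw [orderOf_one]; norm_num)).1
  have hQ : IsPGroup 2 (Subgroup.centralizer ({t} : Set G) ⧸ K) :=
    IsPGroup.of_card (n := 2) (by rw [← Subgroup.index_eq_card, hKi]; rfl)
  have h2 := sum_principalBlock_sq 2 M hM K hK hQ
  rw [hKi] at h2
  simp only [OneMemClass.coe_one, mul_one] at h1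
  rw [h1, h2]
  norm_num

/-- The value of a character of the principal block on the section of `a`. -/
theorem apply_mul_of_mem [Finite G] (M : Ideal AlgInt) (hM : IsPModular 2 M) (a : G)
    (hap : ∃ k : ℕ, orderOf a = 2 ^ k) (K : Subgroup (Subgroup.centralizer ({a} : Set G)))
    [K.Normal] (hK : ¬ 2 ∣ Nat.card K) (hKi : K.index = 4) (χ : IrrCharacter G)
    (hχ : χ ∈ principalBlock M G) (c : Subgroup.centralizer ({a} : Set G))
    (hc : ¬ 2 ∣ orderOf c) : (χ : G → ℂ) (a * (c : G)) = (χ : G → ℂ) a := by
  classical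
  have hQ : IsPGroup 2 (Subgroup.centralizer ({a} : Set G) ⧸ K) :=
    IsPGroup.of_card (n := 2) (by rw [← Subgroup.index_eq_card, hKi]; rfl)
  have hcK : c ∈ K := mem_of_pRegular Nat.prime_two K hQ c hc
  have h := secRes_eq M hM a hap K hK hKi χ hχ c
  rw [if_pos hcK, secRes_of_regular 2 a _ hc] at h
  exact h

/-- The section norm at a central element `t` acting by a scalar of absolute value one. -/
theorem classInner_secRes_central [Fintype G] (t : G)
    [Fintype (Subgroup.centralizer ({t} : Set G))] (htc : ∀ g : G, g * t = t * g)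
    (p : ℕ) (f : G → ℂ) (ε : ℂ) (hε : ∀ g : G, f (t * g) = ε * f g) (hε1 : ε * conj ε = 1) :
    classInner (secRes p t f) (secRes p t f) = classInner (pRegularPart p f) f := by
  have htop : Subgroup.centralizer ({t} : Set G) = ⊤ := by
    rw [Subgroup.centralizer_eq_top_iff_subset, Set.singleton_subset_iff]
    exact Subgroup.mem_center_iff.mpr htc
  rw [← classInner_pRegularPart_right p f f]
  unfold classInner
  have hcard : Nat.card (Subgroup.centralizer ({t} : Set G)) = Nat.card G := by
    rw [htop, Subgroup.card_top]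
  rw [hcard]
  congr 1
  rw [← sum_subtype_of_eq_top _ htop (fun g => pRegularPart p f g * conj (pRegularPart p f g))]
  refine Finset.sum_congr rfl fun c _ => ?_
  by_cases hc : p ∣ orderOf c
  · rw [secRes_of_singular p t f hc,
      pRegularPart_of_singular p f (by rwa [Subgroup.orderOf_coe])]
  · rw [secRes_of_regular p t f hc,
      pRegularPart_of_regular p f (by rwa [Subgroup.orderOf_coe]), hε, map_mul]
    calc ε * f (c : G) * (conj ε * conj (f (c : G)))
        = (ε * conj ε) * (f (c : G) * conj (f (c : G))) := by ring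
      _ = f (c : G) * conj (f (c : G)) := by rw [hε1, one_mul]

end Cfsg.Agent.Lib.Helper4.Q8BlockA
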