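import Mathlib
import Cfsg.Agent.Lib.Helper4.Q8BlockA

/-!
# Principal 2-block with a central involution `t` and one class of elements `a` of order 4,
`a * a = t`, every 2-element being `1`, `t` or conjugate to `a`, and `C_G(a)` having a normal
subgroup `K` of odd order and index 4 (the situation of a quaternion Sylow 2-subgroup of order 8
after the Brauer-Suzuki theorem): norms of the 2-regular parts, `2 l(B₀) + 1 = k(B₀)`, integrality
of the values at `a`, and the four characters not vanishing at `a`.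
-/

set_option autoImplicit false

namespace Cfsg.Agent.Lib.Helper4.Q8BlockB

open Cfsg Cfsg.Agent.Lib.CT.Wedderburn Cfsg.Agent.Lib.Helper77.LocalRing
  Cfsg.Agent.Lib.CT.ThirdMain Cfsg.Agent.Lib.Helper75.Section Cfsg.Agent.Lib.Helper75.Section2
  Cfsg.Agent.Lib.Helper75.Section3 Cfsg.Agent.Lib.Helper75.PNilBlock
  Cfsg.Agent.Lib.Helper75.KleinFour2 Cfsg.Agent.Lib.Helper4.Q8BlockA
open scoped ComplexConjugate

universe u
variable {G : Type u} [Group G]

theorem orderOf_eq_of_isConj {x y : G} (h : IsConj x y) : orderOf x = orderOf y := by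
  obtain ⟨c, hc⟩ := isConj_iff.mp h
  rw [← hc]
  exact (orderOf_injective (MulAut.conj c).toMonoidHom (MulAut.conj c).injective x).symm

/-- A central involution takes the value `± χ(1)` on an irreducible character. -/
theorem central_sq [Finite G] {χ : G → ℂ} (hχ : IsIrrCharacter G χ) (t : G)
    (ht : t * t = 1) (htc : ∀ g : G, g * t = t * g) : χ t = χ 1 ∨ χ t = -χ 1 := by
  have h := central_mul hχ t htc t
  rw [ht] at h
  have h1 : χ 1 ≠ 0 := irr_apply_one_ne_zero hχ
  have h2 : (χ t - χ 1) * (χ t + χ 1) = 0 := by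
    field_simp at h
    linear_combination -h
  rcases mul_eq_zero.mp h2 with h3 | h3
  · left; linear_combination h3
  · right; linear_combination h3

/-- The scalar by which a central involution acts. -/
theorem central_eps [Finite G] {χ : G → ℂ} (hχ : IsIrrCharacter G χ) (t : G)
    (ht : t * t = 1) (htc : ∀ g : G, g * t = t * g) :
    ∃ ε : ℂ, (ε = 1 ∨ ε = -1) ∧ χ t = ε * χ 1 ∧ ∀ g : G, χ (t * g) = ε * χ g := by
  have h1 : χ 1 ≠ 0 := irr_apply_one_ne_zero hχ
  have hmul : ∀ g : G, χ (t * g) = χ g * χ t / χ 1 := by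
    intro g
    rw [← htc g]
    exact central_mul hχ t htc g
  rcases central_sq hχ t ht htc with h | h
  · refine ⟨1, Or.inl rfl, by rw [h, one_mul], fun g => ?_⟩
    rw [hmul g, h]
    field_simp
  · refine ⟨-1, Or.inr rfl, by rw [h]; ring, fun g => ?_⟩
    rw [hmul g, h]
    field_simp

/-- **Norm of the 2-regular part** of a character of the principal block. -/
theorem norm_pRegular [Fintype G] (M : Ideal AlgInt) (hM : IsPModular 2 M)
    (t a : G) (ht2 : orderOf t = 2) (htc : ∀ g : G, g * t = t * g) (ha4 : orderOf a = 4)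
    (hconj : ∀ g : G, (∃ k : ℕ, orderOf g = 2 ^ k) → g = 1 ∨ g = t ∨ IsConj g a)
    (K : Subgroup (Subgroup.centralizer ({a} : Set G))) [K.Normal] (hK : ¬ 2 ∣ Nat.card K)
    (hKi : K.index = 4) (χ : IrrCharacter G) (hχ : χ ∈ principalBlock M G) :
    classInner (pRegularPart 2 (χ : G → ℂ)) (χ : G → ℂ) =
      1 / 2 - (χ : G → ℂ) a * conj ((χ : G → ℂ) a) / 8 := by
  classical
  letI : ∀ x : G, Fintype (Subgroup.centralizer ({x} : Set G)) := fun x => Fintype.ofFinite _
  have ht1 : t ≠ 1 := by
    rintro rfl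
    simp at ht2
  have ha1 : a ≠ 1 := by
    rintro rfl
    simp at ha4
  have hat' : a ≠ t := by
    intro h
    rw [h, ht2] at ha4
    norm_num at ha4
  have htt : t * t = 1 := by rw [← pow_two, ← ht2, pow_orderOf_eq_one]
  have hX : ∀ x ∈ ({1, t, a} : Finset G), ∃ k : ℕ, orderOf x = 2 ^ k := by
    intro x hx
    simp only [Finset.mem_insert, Finset.mem_singleton] at hx
    rcases hx with rfl | rfl | rfl
    · exact ⟨0, by rw [orderOf_one, pow_zero]⟩
    · exact ⟨1, by rw [ht2, pow_one]⟩
    · exact ⟨2, by rw [ha4]; norm_num⟩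
  have hsel : ∀ x ∈ ({1, t, a} : Finset G), ∀ y ∈ ({1, t, a} : Finset G),
      orderOf x = orderOf y → x = y := by
    intro x hx y hy hxy
    simp only [Finset.mem_insert, Finset.mem_singleton] at hx hy
    rcases hx with rfl | rfl | rfl <;> rcases hy with rfl | rfl | rfl <;>
      first
        | rfl
        | (exfalso; simp only [orderOf_one, ht2, ha4] at hxy; omega)
  have hXrep : ∀ g : G, (∃ k : ℕ, orderOf g = 2 ^ k) →
      ∃! x, x ∈ ({1, t, a} : Finset G) ∧ IsConj g x := by
    intro g hg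
    have huniq : ∀ r ∈ ({1, t, a} : Finset G), IsConj g r →
        ∃! x, x ∈ ({1, t, a} : Finset G) ∧ IsConj g x := by
      intro r hr hgr
      refine ⟨r, ⟨hr, hgr⟩, ?_⟩
      rintro x ⟨hx, hgx⟩
      exact hsel x hx r hr
        ((orderOf_eq_of_isConj hgx).symm.trans (orderOf_eq_of_isConj hgr))
    rcases hconj g hg with h | h | h
    · exact huniq 1 (by simp) (by rw [h])
    · exact huniq t (by simp) (by rw [h])
    · exact huniq a (by simp) h
  have h1 := classInner_self_eq_sum_sections Nat.prime_two ({1, t, a} : Finset G) hX hXrep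
    (χ : G → ℂ) (Cfsg.Agent.Lib.CT.Orth.irr_isClassFunction χ)
  obtain ⟨ε, hε, -, hεmul⟩ := central_eps χ.2 t htt htc
  have hε1 : ε * conj ε = 1 := by
    rcases hε with rfl | rfl <;> simp
  rw [irr_orthonormal, if_pos rfl,
    Finset.sum_insert (by simp [Ne.symm ht1, Ne.symm ha1]),
    Finset.sum_pair (Ne.symm hat'), classInner_secRes_one,
    classInner_secRes_central t htc 2 (χ : G → ℂ) ε hεmul hε1,
    Q8BlockA.norm_secRes M hM a ⟨2, by rw [ha4]; norm_num⟩ K hK hKi χ hχ] at h1
  linear_combination (-1 / 2 : ℂ) * h1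

/-- **`2 l(B₀) + 1 = k(B₀)`**. -/
theorem two_mul_blockRank_add_one [Finite G] (M : Ideal AlgInt) (hM : IsPModular 2 M)
    (t a : G) (ht2 : orderOf t = 2) (htc : ∀ g : G, g * t = t * g) (ha4 : orderOf a = 4)
    (hconj : ∀ g : G, (∃ k : ℕ, orderOf g = 2 ^ k) → g = 1 ∨ g = t ∨ IsConj g a)
    (K : Subgroup (Subgroup.centralizer ({a} : Set G))) [K.Normal] (hK : ¬ 2 ∣ Nat.card K)
    (hKi : K.index = 4) :
    2 * blockRank 2 (principalBlock M G) + 1 = Nat.card (principalBlock M G) := by
  classical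
  haveI : Fact (Nat.Prime 2) := ⟨Nat.prime_two⟩
  have := Fintype.ofFinite G
  have := finite_irrCharacter G
  have := Fintype.ofFinite (IrrCharacter G)
  have ha1 : a ≠ 1 := by
    rintro rfl
    simp at ha4
  have hPB : IsPBlock M (principalBlock M G) := ⟨triv G, rfl⟩
  have h1 := blockRank_eq_sum 2 M hM (principalBlock M G) hPB
  have h2 : ∀ ψ : IrrCharacter G, (if ψ ∈ principalBlock M G then
      classInner (pRegularPart 2 (ψ : G → ℂ)) (ψ : G → ℂ) else 0) =
      (if ψ ∈ principalBlock M G then (1 / 2 : ℂ) else 0) - (1 / 8 : ℂ) *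
        ((Set.indicator (principalBlock M G)
          (fun ζ : IrrCharacter G => ‖(ζ : G → ℂ) a‖ ^ 2) ψ : ℝ) : ℂ) := by
    intro ψ
    by_cases hψ : ψ ∈ principalBlock M G
    · rw [if_pos hψ, if_pos hψ, Set.indicator_of_mem hψ,
        norm_pRegular M hM t a ht2 htc ha4 hconj K hK hKi ψ hψ, Complex.mul_conj,
        Complex.normSq_eq_norm_sq]
      push_cast
      ring
    · rw [if_neg hψ, if_neg hψ, Set.indicator_of_notMem hψ]
      simp
  have hsum := Q8BlockA.sum_sq_eq_four M hM a ⟨2, by rw [ha4]; norm_num⟩ ha1 K hK hKi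
  rw [finsum_mem_def, finsum_eq_sum_of_fintype] at hsum
  rw [Finset.sum_congr rfl (fun ψ _ => h2 ψ), Finset.sum_sub_distrib, ← Finset.mul_sum,
    ← Complex.ofReal_sum, hsum, ← Finset.sum_filter, Finset.sum_const, nsmul_eq_mul] at h1
  have h3 : (Finset.univ.filter (fun ζ : IrrCharacter G => ζ ∈ principalBlock M G)).card =
      Nat.card (principalBlock M G) := by
    have := Fintype.ofFinite (principalBlock M G)
    rw [Nat.card_eq_fintype_card,
      Fintype.card_of_subtype (Finset.univ.filter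
        (fun ζ : IrrCharacter G => ζ ∈ principalBlock M G)) (by simp)]
  rw [h3] at h1
  have h5 : ((2 * blockRank 2 (principalBlock M G) + 1 : ℕ) : ℂ) =
      ((Nat.card (principalBlock M G) : ℕ) : ℂ) := by
    push_cast
    rw [h1]
    push_cast
    ring
  exact_mod_cast h5

/-- A sum over a cyclic subgroup as a sum over powers. -/
theorem sum_zpowers (a : G) (n : ℕ) (hn : orderOf a = n) (hn0 : 0 < n)
    [Fintype (Subgroup.zpowers a)] (F : G → ℂ) :
    ∑ x : Subgroup.zpowers a, F x = ∑ i ∈ Finset.range n, F (a ^ i) := by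
  have hfin : IsOfFinOrder a := by
    rw [← orderOf_pos_iff, hn]; exact hn0
  subst hn
  rw [← Fin.sum_univ_eq_sum_range (fun i => F (a ^ i)) (orderOf a)]
  refine (Fintype.sum_equiv (finEquivZPowers hfin) _ _ (fun i => ?_)).symm
  rw [finEquivZPowers_apply]

/-- The value at `a` of an irreducible character is a rational integer. -/
theorem value_int [Finite G] (t a : G) (ht2 : orderOf t = 2) (ha4 : orderOf a = 4)
    (hat : a * a = t) (hinv : IsConj a⁻¹ a) (χ : IrrCharacter G) :
    ∃ n : ℤ, (χ : G → ℂ) a = (n : ℂ) := by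
  classical
  have hχ := isCharacter_of_irr χ.2
  have hcl := char_isClassFunction hχ
  have := Fintype.ofFinite (Subgroup.zpowers a)
  have := Fintype.ofFinite (Subgroup.zpowers t)
  obtain ⟨m₁, h1⟩ := Cfsg.Agent.Lib.CT.Clifford.classInner_char_nat
    (Cfsg.Agent.Lib.CT.Ops.isCharacter_restrict (Subgroup.zpowers a) hχ)
    (Cfsg.Agent.Lib.CT.Ops.isCharacter_one (G := Subgroup.zpowers a))
  obtain ⟨m₂, h2⟩ := Cfsg.Agent.Lib.CT.Clifford.classInner_char_nat
    (Cfsg.Agent.Lib.CT.Ops.isCharacter_restrict (Subgroup.zpowers t) hχ)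
    (Cfsg.Agent.Lib.CT.Ops.isCharacter_one (G := Subgroup.zpowers t))
  unfold classInner at h1 h2
  simp only [map_one, mul_one] at h1 h2
  rw [Nat.card_zpowers, ha4,
    sum_zpowers a 4 ha4 (by norm_num) (fun x => (χ : G → ℂ) x)] at h1
  rw [Nat.card_zpowers, ht2,
    sum_zpowers t 2 ht2 (by norm_num) (fun x => (χ : G → ℂ) x)] at h2
  have ha41 : a ^ 4 = 1 := by rw [← ha4]; exact pow_orderOf_eq_one a
  have ha3 : a ^ 3 = a⁻¹ := by
    apply eq_inv_of_mul_eq_one_left
    rw [← pow_succ]; exact ha41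
  have hval : (χ : G → ℂ) a⁻¹ = (χ : G → ℂ) a := by
    obtain ⟨c, hc⟩ := isConj_iff.mp hinv
    have h := hcl a⁻¹ c
    rw [hc] at h
    exact h.symm
  simp only [Finset.sum_range_succ, Finset.sum_range_zero, pow_zero, pow_one, zero_add] at h1 h2
  rw [pow_two, hat, ha3, hval] at h1
  refine ⟨2 * m₁ - m₂, ?_⟩
  push_cast at h1 h2 ⊢
  linear_combination 2 * h1 - h2

/-- A character not vanishing at `a` has the central involution `t` in its kernel. -/
theorem apply_t_of_ne_zero [Finite G] (t a : G) (ht2 : orderOf t = 2)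
    (htc : ∀ g : G, g * t = t * g) (ha4 : orderOf a = 4) (hat : a * a = t)
    (hinv : IsConj a⁻¹ a) (χ : IrrCharacter G) (hne : (χ : G → ℂ) a ≠ 0) :
    (χ : G → ℂ) t = (χ : G → ℂ) 1 := by
  have hχ := isCharacter_of_irr χ.2
  have hcl := char_isClassFunction hχ
  have htt : t * t = 1 := by rw [← pow_two, ← ht2, pow_orderOf_eq_one]
  obtain ⟨ε, hε, hεt, hεmul⟩ := central_eps χ.2 t htt htc
  rcases hε with rfl | rfl
  · rw [hεt, one_mul]
  · exfalso
    apply hne
    have ha41 : a ^ 4 = 1 := by rw [← ha4]; exact pow_orderOf_eq_one a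
    have hta : t * a = a⁻¹ := by
      apply eq_inv_of_mul_eq_one_left
      calc t * a * a = a ^ 4 := by rw [← hat]; simp only [pow_succ, pow_zero, one_mul]
        _ = 1 := ha41
    have hval : (χ : G → ℂ) a⁻¹ = (χ : G → ℂ) a := by
      obtain ⟨c, hc⟩ := isConj_iff.mp hinv
      have h := hcl a⁻¹ c
      rw [hc] at h
      exact h.symm
    have h1 := hεmul a
    rw [hta, hval] at h1
    linear_combination (1 / 2 : ℂ) * h1

/-- The characters of the principal block take the values `0, ±1` at `a`, and exactly four of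
them do not vanish at `a`. -/
theorem values_and_ncard [Finite G] (M : Ideal AlgInt) (hM : IsPModular 2 M)
    (t a : G) (ht2 : orderOf t = 2) (ha4 : orderOf a = 4) (hat : a * a = t)
    (hinv : IsConj a⁻¹ a)
    (K : Subgroup (Subgroup.centralizer ({a} : Set G))) [K.Normal] (hK : ¬ 2 ∣ Nat.card K)
    (hKi : K.index = 4) :
    (∀ χ ∈ principalBlock M G,
        (χ : G → ℂ) a = 0 ∨ (χ : G → ℂ) a = 1 ∨ (χ : G → ℂ) a = -1) ∧
      {χ : IrrCharacter G | χ ∈ principalBlock M G ∧ (χ : G → ℂ) a ≠ 0}.ncard = 4 := by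
  classical
  have hMp := isPrime_of_isPModular hM
  have := finite_irrCharacter G
  have := Fintype.ofFinite (IrrCharacter G)
  have ha1 : a ≠ 1 := by
    rintro rfl
    simp at ha4
  choose n hn using fun χ : IrrCharacter G => value_int t a ht2 ha4 hat hinv χ
  have hsum := Q8BlockA.sum_sq_eq_four M hM a ⟨2, by rw [ha4]; norm_num⟩ ha1 K hK hKi
  rw [finsum_mem_def, finsum_eq_sum_of_fintype] at hsum
  have hsumZ : ∑ ζ ∈ Finset.univ.filter (fun ζ : IrrCharacter G => ζ ∈ principalBlock M G),
      (n ζ) ^ 2 = 4 := by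
    have h1 : ∀ ζ : IrrCharacter G, Set.indicator (principalBlock M G)
        (fun ζ : IrrCharacter G => ‖(ζ : G → ℂ) a‖ ^ 2) ζ =
        if ζ ∈ principalBlock M G then (((n ζ) ^ 2 : ℤ) : ℝ) else 0 := by
      intro ζ
      rw [Set.indicator_apply]
      by_cases h : ζ ∈ principalBlock M G
      · rw [if_pos h, if_pos h, hn ζ, Complex.norm_intCast, sq_abs]
        push_cast
        rfl
      · rw [if_neg h, if_neg h]
    rw [Finset.sum_congr rfl (fun ζ _ => h1 ζ), ← Finset.sum_filter] at hsum
    exact_mod_cast hsum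
  have htriv : triv G ∈ principalBlock M G := triv_mem_principalBlock hMp
  have hntriv : n (triv G) = 1 := by
    have h1 := hn (triv G)
    have h2 : ((triv G : IrrCharacter G) : G → ℂ) a = 1 := rfl
    rw [h2] at h1
    exact_mod_cast h1.symm
  have hall : ∀ ζ ∈ principalBlock M G, n ζ = 0 ∨ (n ζ) ^ 2 = 1 := by
    intro ζ₀ hζ₀
    by_contra hne
    push_neg at hne
    have h4 : 4 ≤ (n ζ₀) ^ 2 := by
      have hcases : n ζ₀ ≤ -2 ∨ n ζ₀ = -1 ∨ n ζ₀ = 0 ∨ n ζ₀ = 1 ∨ 2 ≤ n ζ₀ := by omega
      rcases hcases with h | h | h | h | h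
      · nlinarith
      · exfalso; apply hne.2; rw [h]; norm_num
      · exact absurd h hne.1
      · exfalso; apply hne.2; rw [h]; norm_num
      · nlinarith
    have hneq : ζ₀ ≠ triv G := by
      intro h
      apply hne.2
      rw [h, hntriv]
      norm_num
    have hsub : ({ζ₀, triv G} : Finset (IrrCharacter G)) ⊆
        Finset.univ.filter (fun ζ : IrrCharacter G => ζ ∈ principalBlock M G) := by
      intro ζ hζ
      rw [Finset.mem_insert, Finset.mem_singleton] at hζ
      rw [Finset.mem_filter]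
      rcases hζ with rfl | rfl
      · exact ⟨Finset.mem_univ _, hζ₀⟩
      · exact ⟨Finset.mem_univ _, htriv⟩
    have hle := Finset.sum_le_sum_of_subset_of_nonneg (f := fun ζ : IrrCharacter G => (n ζ) ^ 2)
      hsub (fun ζ _ _ => sq_nonneg _)
    rw [Finset.sum_pair hneq, hsumZ, hntriv] at hle
    norm_num at hle
    omega
  constructor
  · intro χ hχ
    rcases hall χ hχ with h | h
    · left
      rw [hn χ, h]
      simp
    · have h2 : (n χ - 1) * (n χ + 1) = 0 := by ring_nf; rw [h]; ring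
      rcases mul_eq_zero.mp h2 with h3 | h3
      · right; left
        rw [hn χ]
        have : n χ = 1 := by omega
        rw [this]
        simp
      · right; right
        rw [hn χ]
        have : n χ = -1 := by omega
        rw [this]
        simp
  · have hset : {χ : IrrCharacter G | χ ∈ principalBlock M G ∧ (χ : G → ℂ) a ≠ 0} =
        ↑((Finset.univ.filter (fun ζ : IrrCharacter G => ζ ∈ principalBlock M G)).filter
          (fun ζ => n ζ ≠ 0)) := by
      ext χ
      simp only [Set.mem_setOf_eq, Finset.coe_filter, Finset.mem_filter, Finset.mem_univ,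
        true_and]
      rw [hn χ, Ne, Int.cast_eq_zero]
    rw [hset, Set.ncard_coe_finset]
    have h5 : ∑ ζ ∈ Finset.univ.filter (fun ζ : IrrCharacter G => ζ ∈ principalBlock M G),
        (n ζ) ^ 2 = ∑ ζ ∈ Finset.univ.filter
          (fun ζ : IrrCharacter G => ζ ∈ principalBlock M G), (if n ζ ≠ 0 then (1 : ℤ) else 0) := by
      refine Finset.sum_congr rfl fun ζ hζ => ?_
      rcases hall ζ (Finset.mem_filter.mp hζ).2 with h | h
      · simp [h]
      · rw [if_pos (by rintro h0; rw [h0] at h; norm_num at h), h]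
    rw [hsumZ, Finset.sum_boole] at h5
    exact_mod_cast h5.symm

end Cfsg.Agent.Lib.Helper4.Q8BlockB
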