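import Mathlib
import Cfsg.Agent.S0950
import Cfsg.Agent.Lib.Helper4.Invol

/-!
# Groups with a quaternion Sylow 2-subgroup of order 8: the 2-elements

Finite facts about `QuaternionGroup 2`, and, for a finite group `G` with Sylow 2-subgroup
`S ≃* QuaternionGroup 2` having no normal complement and a central involution: the classes of
2-elements and the normal 2-complement of the centralizer of an element of order 4.
-/

set_option autoImplicit false

namespace Cfsg.Agent.Lib.Helper4.Q8Group

open QuaternionGroup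

theorem q8_sq_one : ∀ x : QuaternionGroup 2, x * x = 1 → x = 1 ∨ x = a 2 := by decide

theorem q8_sq : ∀ x : QuaternionGroup 2, x * x ≠ 1 → x * x = a 2 := by decide

theorem q8_cent : ∀ x y : QuaternionGroup 2, x * x ≠ 1 → x * y = y * x →
    (y = 1 ∨ y = x ∨ y = x * x ∨ y = x * x * x) := by decide

theorem q8_inv : ∀ x : QuaternionGroup 2, x * x ≠ 1 →
    ∃ y : QuaternionGroup 2, y * x * y⁻¹ = x⁻¹ := by decide

theorem q8_four : ∀ x : QuaternionGroup 2, x * x * (x * x) = 1 := by decide

theorem q8_a2 : (a 2 : QuaternionGroup 2) * a 2 = 1 ∧ (a 2 : QuaternionGroup 2) ≠ 1 := by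
  decide

theorem q8_a1 : (a 1 : QuaternionGroup 2) * a 1 = a 2 := by decide

variable {G : Type*} [Group G]

/-- The facts about `QuaternionGroup 2` transported to a group isomorphic to it, relative to an
involution `z'`. -/
theorem iso_facts {S : Type*} [Group S] (e : S ≃* QuaternionGroup 2) (z' : S) (hz1 : z' ≠ 1)
    (hzz : z' * z' = 1) :
    (∀ s : S, s * s = 1 → s = 1 ∨ s = z') ∧
    (∀ s : S, s * s ≠ 1 → s * s = z') ∧
    (∀ s y : S, s * s ≠ 1 → s * y = y * s → (y = 1 ∨ y = s ∨ y = s * s ∨ y = s * s * s)) ∧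
    (∀ s : S, s * s ≠ 1 → ∃ y : S, y * s * y⁻¹ = s⁻¹) ∧
    (∀ s : S, s * s * (s * s) = 1) := by
  have hez : e z' = a 2 := by
    rcases q8_sq_one (e z') (by rw [← map_mul, hzz, map_one]) with h | h
    · exact absurd ((MulEquiv.map_eq_one_iff e).mp h) hz1
    · exact h
  have hne : ∀ s : S, s * s ≠ 1 → e s * e s ≠ 1 := fun s hs h =>
    hs (by apply e.injective; rw [map_mul, h, map_one])
  refine ⟨?_, ?_, ?_, ?_, ?_⟩
  · intro s hs
    rcases q8_sq_one (e s) (by rw [← map_mul, hs, map_one]) with h | h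
    · left; exact (MulEquiv.map_eq_one_iff e).mp h
    · right; exact e.injective (h.trans hez.symm)
  · intro s hs
    apply e.injective
    rw [map_mul, hez]
    exact q8_sq (e s) (hne s hs)
  · intro s y hs hsy
    have := q8_cent (e s) (e y) (hne s hs) (by rw [← map_mul, ← map_mul, hsy])
    rcases this with h | h | h | h
    · left; exact (MulEquiv.map_eq_one_iff e).mp h
    · right; left; exact e.injective h
    · right; right; left; apply e.injective; rw [map_mul]; exact h
    · right; right; right; apply e.injective; rw [map_mul, map_mul]; exact h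
  · intro s hs
    obtain ⟨y, hy⟩ := q8_inv (e s) (hne s hs)
    refine ⟨e.symm y, ?_⟩
    apply e.injective
    rw [map_mul, map_mul, map_inv, map_inv, e.apply_symm_apply]
    exact hy
  · intro s
    apply e.injective
    rw [map_mul, map_mul, map_one]
    exact q8_four (e s)

/-- An element with `x * x ≠ 1` and `x ^ 4 = 1` has order 4. -/
theorem orderOf_eq_four {x : G} (h2 : x * x ≠ 1) (h4 : x * x * (x * x) = 1) : orderOf x = 4 := by
  have h := orderOf_eq_prime_pow (p := 2) (n := 1) (x := x)
    (by rw [pow_one, pow_two]; exact h2)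
    (by
      have : x ^ 2 ^ (1 + 1) = x * x * (x * x) := by
        show x ^ 4 = x * x * (x * x)
        rw [show (4 : ℕ) = 2 + 2 from rfl, pow_add, pow_two]
      rw [this]; exact h4)
  rw [h]
  norm_num

/-- **The 2-local data** of a group with quaternion Sylow 2-subgroup `S` of order 8 without normal
complement and with a central involution `z`. -/
theorem q8_data [Finite G] (S : Sylow 2 G) (e : (S : Subgroup G) ≃* QuaternionGroup 2)
    (hnc : ∀ N : Subgroup G, N.Normal → ¬ Subgroup.IsComplement' N (S : Subgroup G))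
    (z : G) (hz2 : orderOf z = 2) (hzc : ∀ g : G, g * z = z * g) :
    Nat.card S = 8 ∧ z ∈ (S : Subgroup G) ∧
    ∃ a₁ : G, orderOf a₁ = 4 ∧ a₁ * a₁ = z ∧
      (∀ g : G, (∃ k : ℕ, orderOf g = 2 ^ k) → g = 1 ∨ g = z ∨ IsConj g a₁) ∧
      ∃ K : Subgroup (Subgroup.centralizer ({a₁} : Set G)),
        K.Normal ∧ ¬ 2 ∣ Nat.card K ∧ K.index = 4 := by
  classical
  haveI : Fact (Nat.Prime 2) := ⟨Nat.prime_two⟩
  have hz1 : z ≠ 1 := by
    rintro rfl
    simp at hz2
  have hzz : z * z = 1 := by rw [← pow_two, ← hz2, pow_orderOf_eq_one]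
  have hP8 : Nat.card S = 8 := by
    rw [Nat.card_congr e.toEquiv, Nat.card_eq_fintype_card, QuaternionGroup.card]
  have hzS : z ∈ (S : Subgroup G) := by
    have hp : IsPGroup 2 (Subgroup.zpowers z) :=
      IsPGroup.of_card (n := 1) (by rw [Nat.card_zpowers, hz2, pow_one])
    have h1 := hp.inf_normalizer_sylow S
    have h2 : Subgroup.zpowers z ≤ Subgroup.normalizer ((S : Subgroup G) : Set G) := by
      rw [Subgroup.zpowers_le, Subgroup.mem_normalizer_iff]
      intro h
      rw [← hzc h, mul_assoc, mul_inv_cancel, mul_one]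
    have h3 : Subgroup.zpowers z ≤ (S : Subgroup G) := by
      have h4 := inf_eq_left.mpr h2
      exact inf_eq_left.mp (h1.symm.trans h4)
    exact h3 (Subgroup.mem_zpowers z)
  have hz'1 : (⟨z, hzS⟩ : (S : Subgroup G)) ≠ 1 := fun h => hz1 (congrArg Subtype.val h)
  have hz'z : (⟨z, hzS⟩ : (S : Subgroup G)) * ⟨z, hzS⟩ = 1 := Subtype.ext hzz
  obtain ⟨F1, F2, F3, F4, F5⟩ := iso_facts e ⟨z, hzS⟩ hz'1 hz'z
  obtain ⟨a₀, ha₀⟩ : ∃ a₀ : (S : Subgroup G), a₀ = e.symm (a 1) := ⟨_, rfl⟩
  have ha₀2 : a₀ * a₀ ≠ 1 := by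
    intro h
    have h1 : e (a₀ * a₀) = 1 := by rw [h, map_one]
    rw [map_mul, ha₀, e.apply_symm_apply, q8_a1] at h1
    exact q8_a2.2 h1
  have haz : a₀ * a₀ = ⟨z, hzS⟩ := F2 a₀ ha₀2
  have ha4 : orderOf (a₀ : G) = 4 :=
    orderOf_eq_four (fun h => ha₀2 (Subtype.ext h)) (congrArg Subtype.val (F5 a₀))
  refine ⟨hP8, hzS, (a₀ : G), ha4, congrArg Subtype.val haz, ?_, ?_⟩
  · intro g hg
    obtain ⟨k, hk⟩ := hg
    have hpg : IsPGroup 2 (Subgroup.zpowers g) :=
      IsPGroup.of_card (n := k) (by rw [Nat.card_zpowers, hk])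
    obtain ⟨c, hc⟩ := Cfsg.Agent.Lib.Helper4.Invol.exists_conj_mem_sylow S hpg
    have hgS : c⁻¹ * g * c ∈ (S : Subgroup G) := hc g (Subgroup.mem_zpowers g)
    obtain ⟨s, hs⟩ : ∃ s : (S : Subgroup G), (s : G) = c⁻¹ * g * c := ⟨⟨_, hgS⟩, rfl⟩
    by_cases hss : s * s = 1
    · rcases F1 s hss with h | h
      · left
        have h1 : c⁻¹ * g * c = 1 := by rw [← hs, h]; rfl
        calc g = c * (c⁻¹ * g * c) * c⁻¹ := by group
          _ = 1 := by rw [h1]; group
      · right; left
        have h1 : c⁻¹ * g * c = z := by rw [← hs, h]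
        calc g = c * (c⁻¹ * g * c) * c⁻¹ := by group
          _ = c * z * c⁻¹ := by rw [h1]
          _ = z := by rw [hzc c, mul_assoc, mul_inv_cancel, mul_one]
    · right; right
      have hs4 : orderOf (s : G) = 4 :=
        orderOf_eq_four (fun h => hss (Subtype.ext h)) (congrArg Subtype.val (F5 s))
      obtain ⟨n, hn, hB⟩ := Cfsg.Agent.S0950.result S e hnc (Subgroup.zpowers (a₀ : G))
        (Subgroup.zpowers (s : G))
        (by rw [Subgroup.zpowers_le]; exact a₀.2) (by rw [Subgroup.zpowers_le]; exact s.2)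
        (by rw [Nat.card_zpowers, ha4]) (by rw [Nat.card_zpowers, hs4])
      rw [MonoidHom.map_zpowers] at hB
      have hbS : n * (a₀ : G) * n⁻¹ ∈ (S : Subgroup G) :=
        (Subgroup.mem_normalizer_iff.mp hn _).mp a₀.2
      obtain ⟨b, hb⟩ : ∃ b : (S : Subgroup G), (b : G) = n * (a₀ : G) * n⁻¹ := ⟨⟨_, hbS⟩, rfl⟩
      have hbmem : (b : G) ∈ Subgroup.zpowers (s : G) := by
        rw [hB, hb]
        exact Subgroup.mem_zpowers _
      have hcomm : s * b = b * s := by
        obtain ⟨j, hj⟩ := Subgroup.mem_zpowers_iff.mp hbmem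
        apply Subtype.ext
        show (s : G) * (b : G) = (b : G) * (s : G)
        rw [← hj, ← zpow_one_add, ← zpow_add_one, add_comm]
      rcases F3 s b hss hcomm with h | h | h | h
      · exfalso
        have h1 : n * (a₀ : G) * n⁻¹ = 1 := by rw [← hb, h]; rfl
        have h2 : (a₀ : G) = 1 := by
          calc (a₀ : G) = n⁻¹ * (n * (a₀ : G) * n⁻¹) * n := by group
            _ = 1 := by rw [h1]; group
        rw [h2, orderOf_one] at ha4
        norm_num at ha4
      · have h1 : n * (a₀ : G) * n⁻¹ = c⁻¹ * g * c := by rw [← hb, h, hs]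
        rw [isConj_iff]
        refine ⟨n⁻¹ * c⁻¹, ?_⟩
        calc n⁻¹ * c⁻¹ * g * (n⁻¹ * c⁻¹)⁻¹ = n⁻¹ * (c⁻¹ * g * c) * n := by group
          _ = n⁻¹ * (n * (a₀ : G) * n⁻¹) * n := by rw [h1]
          _ = a₀ := by group
      · exfalso
        have hbb : b * b ≠ 1 := by
          intro h'
          apply ha₀2
          apply Subtype.ext
          have h1 : n * (a₀ : G) * n⁻¹ * (n * (a₀ : G) * n⁻¹) = 1 := by
            rw [← hb]; exact congrArg Subtype.val h'
          show (a₀ : G) * (a₀ : G) = 1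
          calc (a₀ : G) * (a₀ : G)
              = n⁻¹ * (n * (a₀ : G) * n⁻¹ * (n * (a₀ : G) * n⁻¹)) * n := by group
            _ = 1 := by rw [h1]; group
        apply hbb
        rw [h, F2 s hss]
        exact hz'z
      · have hsb : (s : G) * (b : G) = 1 := by
          have h5 := congrArg Subtype.val (F5 s)
          rw [h]
          show (s : G) * ((s : G) * (s : G) * (s : G)) = 1
          rw [← mul_assoc, ← mul_assoc, mul_assoc ((s : G) * (s : G))]
          exact h5
        obtain ⟨y, hy⟩ := F4 a₀ ha₀2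
        have h1 : c⁻¹ * g * c = (n * (a₀ : G) * n⁻¹)⁻¹ := by
          rw [← hs, ← hb]
          exact eq_inv_of_mul_eq_one_left hsb
        have h2 : (y : G) * (a₀ : G) * (y : G)⁻¹ = (a₀ : G)⁻¹ := congrArg Subtype.val hy
        rw [isConj_iff]
        refine ⟨(y : G)⁻¹ * n⁻¹ * c⁻¹, ?_⟩
        calc (y : G)⁻¹ * n⁻¹ * c⁻¹ * g * ((y : G)⁻¹ * n⁻¹ * c⁻¹)⁻¹
            = (y : G)⁻¹ * n⁻¹ * (c⁻¹ * g * c) * n * (y : G) := by group
          _ = (y : G)⁻¹ * n⁻¹ * (n * (a₀ : G) * n⁻¹)⁻¹ * n * (y : G) := by rw [h1]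
          _ = (y : G)⁻¹ * (a₀ : G)⁻¹ * (y : G) := by group
          _ = (y : G)⁻¹ * ((y : G) * (a₀ : G) * (y : G)⁻¹) * (y : G) := by rw [h2]
          _ = a₀ := by group
  · have haC : (a₀ : G) ∈ Subgroup.centralizer ({(a₀ : G)} : Set G) :=
      Subgroup.mem_centralizer_singleton_iff.mpr rfl
    obtain ⟨aC, haCdef⟩ : ∃ aC : Subgroup.centralizer ({(a₀ : G)} : Set G),
        (aC : G) = (a₀ : G) := ⟨⟨_, haC⟩, rfl⟩
    have haC4 : orderOf aC = 4 := by rw [← Subgroup.orderOf_coe, haCdef]; exact ha4
    have hpA : IsPGroup 2 (Subgroup.zpowers aC) :=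
      IsPGroup.of_card (n := 2) (by rw [Nat.card_zpowers, haC4]; norm_num)
    obtain ⟨Q, hQ⟩ := hpA.exists_le_sylow
    have haQ : aC ∈ (Q : Subgroup (Subgroup.centralizer ({(a₀ : G)} : Set G))) :=
      hQ (Subgroup.mem_zpowers aC)
    have hQ' : IsPGroup 2 ((Q : Subgroup (Subgroup.centralizer ({(a₀ : G)} : Set G))).map
        (Subgroup.centralizer ({(a₀ : G)} : Set G)).subtype) := Q.2.map _
    obtain ⟨c, hc⟩ := Cfsg.Agent.Lib.Helper4.Invol.exists_conj_mem_sylow S hQ'
    have hQle : (Q : Subgroup (Subgroup.centralizer ({(a₀ : G)} : Set G))) ≤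
        Subgroup.zpowers aC := by
      intro x hx
      have hxS : c⁻¹ * (x : G) * c ∈ (S : Subgroup G) :=
        hc _ (Subgroup.mem_map_of_mem _ hx)
      have haS : c⁻¹ * (a₀ : G) * c ∈ (S : Subgroup G) := by
        have := hc _ (Subgroup.mem_map_of_mem
          (Subgroup.centralizer ({(a₀ : G)} : Set G)).subtype haQ)
        rw [Subgroup.coe_subtype, haCdef] at this
        exact this
      obtain ⟨xs, hxs⟩ : ∃ xs : (S : Subgroup G), (xs : G) = c⁻¹ * (x : G) * c :=
        ⟨⟨_, hxS⟩, rfl⟩
      obtain ⟨as, has⟩ : ∃ as : (S : Subgroup G), (as : G) = c⁻¹ * (a₀ : G) * c :=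
        ⟨⟨_, haS⟩, rfl⟩
      have has2 : as * as ≠ 1 := by
        intro h
        apply ha₀2
        apply Subtype.ext
        have h1 : c⁻¹ * (a₀ : G) * c * (c⁻¹ * (a₀ : G) * c) = 1 := by
          rw [← has]; exact congrArg Subtype.val h
        show (a₀ : G) * (a₀ : G) = 1
        calc (a₀ : G) * (a₀ : G)
            = c * (c⁻¹ * (a₀ : G) * c * (c⁻¹ * (a₀ : G) * c)) * c⁻¹ := by group
          _ = 1 := by rw [h1]; group
      have hxa : (x : G) * (a₀ : G) = (a₀ : G) * (x : G) :=
        Subgroup.mem_centralizer_singleton_iff.mp x.2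
      have hcomm : as * xs = xs * as := by
        apply Subtype.ext
        show (as : G) * (xs : G) = (xs : G) * (as : G)
        rw [has, hxs]
        calc c⁻¹ * (a₀ : G) * c * (c⁻¹ * (x : G) * c) = c⁻¹ * ((a₀ : G) * (x : G)) * c := by
              group
          _ = c⁻¹ * ((x : G) * (a₀ : G)) * c := by rw [hxa]
          _ = c⁻¹ * (x : G) * c * (c⁻¹ * (a₀ : G) * c) := by group
      have hback : ∀ w : G, c⁻¹ * (x : G) * c = c⁻¹ * w * c → (x : G) = w := by
        intro w hw
        calc (x : G) = c * (c⁻¹ * (x : G) * c) * c⁻¹ := by group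
          _ = c * (c⁻¹ * w * c) * c⁻¹ := by rw [hw]
          _ = w := by group
      have hx_cases : (x : G) = 1 ∨ (x : G) = (a₀ : G) ∨ (x : G) = (a₀ : G) * (a₀ : G) ∨
          (x : G) = (a₀ : G) * (a₀ : G) * (a₀ : G) := by
        rcases F3 as xs has2 hcomm with h | h | h | h
        · left
          apply hback
          rw [← hxs, h]
          show (1 : G) = c⁻¹ * 1 * c
          group
        · right; left
          apply hback
          rw [← hxs, h, has]
        · right; right; left
          apply hback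
          rw [← hxs, h]
          show (as : G) * (as : G) = _
          rw [has]
          group
        · right; right; right
          apply hback
          rw [← hxs, h]
          show (as : G) * (as : G) * (as : G) = _
          rw [has]
          group
      have hmem1 : aC ∈ Subgroup.zpowers aC := Subgroup.mem_zpowers aC
      rcases hx_cases with h | h | h | h
      · have : x = 1 := Subtype.ext h
        rw [this]
        exact Subgroup.one_mem _
      · have : x = aC := Subtype.ext (h.trans haCdef.symm)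
        rw [this]
        exact hmem1
      · have : x = aC * aC := by
          apply Subtype.ext
          rw [h]
          show _ = (aC : G) * (aC : G)
          rw [haCdef]
        rw [this]
        exact Subgroup.mul_mem _ hmem1 hmem1
      · have : x = aC * aC * aC := by
          apply Subtype.ext
          rw [h]
          show _ = (aC : G) * (aC : G) * (aC : G)
          rw [haCdef]
        rw [this]
        exact Subgroup.mul_mem _ (Subgroup.mul_mem _ hmem1 hmem1) hmem1
    have hQeq : (Q : Subgroup (Subgroup.centralizer ({(a₀ : G)} : Set G))) =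
        Subgroup.zpowers aC := le_antisymm hQle hQ
    have hQ4 : Nat.card (Q : Subgroup (Subgroup.centralizer ({(a₀ : G)} : Set G))) = 4 := by
      rw [hQeq, Nat.card_zpowers, haC4]
    have hcyc : IsCyclic (Q : Subgroup (Subgroup.centralizer ({(a₀ : G)} : Set G))) := by
      rw [hQeq]
      infer_instance
    have h2C : 2 ∣ Nat.card (Subgroup.centralizer ({(a₀ : G)} : Set G)) := by
      have := orderOf_dvd_natCard aC
      rw [haC4] at this
      exact dvd_trans (by norm_num) this
    have hp : (Nat.card (Subgroup.centralizer ({(a₀ : G)} : Set G))).minFac = 2 :=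
      (Nat.minFac_eq_two_iff _).mpr h2C
    have hP := IsCyclic.normalizer_le_centralizer hp (P := Q) hcyc
    refine ⟨(MonoidHom.transferSylow Q hP).ker, inferInstance,
      MonoidHom.not_dvd_card_ker_transferSylow Q hP, ?_⟩
    have hcomp := MonoidHom.ker_transferSylow_isComplement' Q hP
    rw [hcomp.symm.index_eq_card, hQ4]

end Cfsg.Agent.Lib.Helper4.Q8Group
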