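import Mathlib
import Cfsg.Agent.Lib.Helper83.S38Stmt
import Cfsg.Agent.Lib.Helper2.Split
import Cfsg.Agent.Lib.Helper23.TypeP
import Cfsg.Agent.S1474

set_option autoImplicit false

/-!
# S1538 piece NOT34

`M` with Type II data is not of Type III or IV: the complements `U`, `U'` of `M_F` in `M'` are
conjugate under `M_F`, so `N_G(U) ≤ M` iff `N_G(U') ≤ M`.
-/

namespace Cfsg.Agent.Lib.Helper4.S38NOT34

open Cfsg.Agent.Lib.Helper83

open scoped Pointwise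

universe u

/-- two type-P data of `M`: `N_G(U') ≤ M` gives `N_G(U) ≤ M`. -/
theorem core {G : Type u} [Group G] [Finite G] (M W₁ U W₂ W₁' U' W₂' : Subgroup G)
    (hP : Cfsg.IsTypePWith M W₁ U W₂) (hP' : Cfsg.IsTypePWith M W₁' U' W₂')
    (hN' : Subgroup.normalizer (U' : Set G) ≤ M) : Subgroup.normalizer (U : Set G) ≤ M := by
  have hc := hP.U_compl
  have hc' := hP'.U_compl
  obtain ⟨hHM', hUM', hHU, -⟩ := hc
  obtain ⟨-, hU'M', hHU', -⟩ := hc'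
  have hM'M : ⁅M, M⁆ ≤ M := hP.W₁_compl.1
  have hconj : ∀ m ∈ M, ∀ h ∈ Cfsg.fittingHallOf M, m * h * m⁻¹ ∈ Cfsg.fittingHallOf M := by
    intro m hm h hh
    obtain ⟨k, hk, rfl⟩ := Subgroup.mem_map.1 hh
    exact Subgroup.mem_map.2 ⟨⟨m, hm⟩ * k * ⟨m, hm⟩⁻¹,
      (Cfsg.fittingHall_normal ↥M).conj_mem k hk ⟨m, hm⟩, by simp⟩
  have hnorm : ⁅M, M⁆ ≤ Subgroup.normalizer ((Cfsg.fittingHallOf M : Subgroup G) : Set G) := by
    intro m hm
    rw [Subgroup.mem_normalizer_iff]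
    intro h
    constructor
    · exact hconj m (hM'M hm) h
    · intro hh
      have h1 := hconj m⁻¹ (M.inv_mem (hM'M hm)) _ hh
      simpa [mul_assoc] using h1
  have hnil : Group.IsNilpotent ↥(Cfsg.fittingHallOf M) :=
    Cfsg.Agent.S1473.nilp_map M.subtype (Cfsg.fittingHall ↥M)
      Cfsg.Agent.S1474.fittingHall_nilpotent
  have hsolv : Group.IsSolvable ↥(Cfsg.fittingHallOf M) := inferInstance
  have hcard : Nat.card ↥(Cfsg.fittingHallOf M) * Nat.card ↥U = Nat.card ↥⁅M, M⁆ :=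
    (Cfsg.Agent.Lib.Helper23.TypeP.card_of_isComplIn hP.U_compl).symm
  have hcard' : Nat.card ↥(Cfsg.fittingHallOf M) * Nat.card ↥U' = Nat.card ↥⁅M, M⁆ :=
    (Cfsg.Agent.Lib.Helper23.TypeP.card_of_isComplIn hP'.U_compl).symm
  have hcop : (Nat.card ↥(Cfsg.fittingHallOf M)).Coprime (Nat.card ↥U) :=
    (Cfsg.Agent.Lib.Helper23.TypeP.coprime_card_fittingHallOf M U (hUM'.trans hM'M) hHU).symm
  obtain ⟨m, hmH, hmU⟩ := Cfsg.Agent.Lib.Helper2.Split.conj_compl (Cfsg.fittingHallOf M) ⁅M, M⁆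
    U U' hHM' hnorm hsolv hUM' hU'M' hHU hHU' hcard hcard' hcop
  have hmM : m ∈ M := hM'M (hHM' hmH)
  have hmem : ∀ y : G, y ∈ U' ↔ m⁻¹ * y * m ∈ U := by
    intro y
    rw [← hmU, Subgroup.mem_pointwise_smul_iff_inv_smul_mem]
    simp [MulAut.smul_def]
  intro g hg
  rw [Subgroup.mem_normalizer_iff] at hg
  have hg' : m * g * m⁻¹ ∈ Subgroup.normalizer (U' : Set G) := by
    rw [Subgroup.mem_normalizer_iff]
    intro y
    rw [hmem, hmem, hg (m⁻¹ * y * m)]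
    have e : g * (m⁻¹ * y * m) * g⁻¹ = m⁻¹ * (m * g * m⁻¹ * y * (m * g * m⁻¹)⁻¹) * m := by group
    rw [e]
  have h2 := hN' hg'
  have e2 : g = m⁻¹ * (m * g * m⁻¹) * m := by group
  rw [e2]
  exact M.mul_mem (M.mul_mem (M.inv_mem hmM) h2) hmM

theorem main : S38Stmt.Not34.{u} := by
  intro G _ _ M W₁ U W₂ hC
  constructor
  · rintro ⟨W₁', U', W₂', hP', -, -, -, -, hN'⟩
    exact hC.hN (core M W₁ U W₂ W₁' U' W₂' hC.hP hP' hN')
  · rintro ⟨W₁', U', W₂', hP', -, -, -, -, hN'⟩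
    exact hC.hN (core M W₁ U W₂ W₁' U' W₂' hC.hP hP' hN')

end Cfsg.Agent.Lib.Helper4.S38NOT34
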