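import Mathlib
import Cfsg.Agent.Lib.Helper55.S53Stmt

set_option autoImplicit false

namespace Cfsg.Agent.Lib.Helper4.S53AVG

universe u

/-- Conjugation by an element of the normalizer, as an endomorphism of the subgroup. -/
private def cj {G : Type u} [Group G] (S : Subgroup G) (v : G)
    (hv : v ∈ Subgroup.normalizer (S : Set G)) : ↥S →* ↥S where
  toFun s := ⟨v * s * v⁻¹, (Subgroup.mem_normalizer_iff.mp hv s).mp s.2⟩
  map_one' := by ext; simp
  map_mul' a b := by ext; simp [mul_assoc]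

private theorem avg_core {G : Type u} [Group G] [Finite G] {Q : Type u} [CommGroup Q]
    (S V : Subgroup G) (hVS : V ≤ Subgroup.normalizer (S : Set G)) (φ : ↥S →* Q)
    (x : G) (hxS : x ∈ S) (hVx : ∀ v ∈ V, v * x = x * v) (hEq : ⁅S, V⁆ = S) :
    φ ⟨x, hxS⟩ ^ Nat.card V = 1 := by
  classical
  haveI : Fintype V := Fintype.ofFinite V
  let Ψ : ↥S →* Q := ∏ v : V, φ.comp (cj S v.1 (hVS v.2))
  have hΨ : ∀ s : ↥S, Ψ s = ∏ v : V, φ (cj S v.1 (hVS v.2) s) := by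
    intro s
    simp only [Ψ, MonoidHom.finset_prod_apply, MonoidHom.comp_apply]
  have hinv : ∀ (w : V) (s : ↥S), Ψ (cj S w.1 (hVS w.2) s) = Ψ s := by
    intro w s
    rw [hΨ, hΨ]
    refine Fintype.prod_equiv (Equiv.mulRight w) _ _ ?_
    intro v
    congr 1
    ext
    simp [cj, mul_assoc]
  have hker : ⁅S, V⁆ ≤ Ψ.ker.map S.subtype := by
    rw [Subgroup.commutator_le]
    intro s hs w hw
    refine ⟨⟨s, hs⟩ * cj S w (hVS hw) (⟨s, hs⟩ : ↥S)⁻¹, ?_, ?_⟩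
    · show Ψ _ = 1
      rw [map_mul, hinv ⟨w, hw⟩, map_inv, mul_inv_cancel]
    · simp [cj, commutatorElement_def, mul_assoc]
  have hx : (⟨x, hxS⟩ : ↥S) ∈ Ψ.ker := by
    have hx' : x ∈ Ψ.ker.map S.subtype := hker (by rw [hEq]; exact hxS)
    obtain ⟨y, hy, hyx⟩ := hx'
    have hyx' : y = ⟨x, hxS⟩ := Subtype.ext hyx
    rw [← hyx']; exact hy
  have h1 : Ψ ⟨x, hxS⟩ = 1 := hx
  rw [hΨ] at h1
  have h2 : ∀ v : V, φ (cj S v.1 (hVS v.2) ⟨x, hxS⟩) = φ ⟨x, hxS⟩ := by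
    intro v
    congr 1
    ext
    show v.1 * x * v.1⁻¹ = x
    rw [hVx v.1 v.2, mul_inv_cancel_right]
  simp only [h2, Finset.prod_const, Finset.card_univ] at h1
  rwa [Nat.card_eq_fintype_card]

theorem main : Cfsg.Agent.Lib.Helper55.S53Stmt.Avg.{u} := by
  classical
  intro G _ _ r S V N x hr hVS hcop hNS hSN hidx hxS hxN hVx hEq
  haveI hnorm : (N.subgroupOf S).Normal :=
    (Subgroup.normal_subgroupOf_iff_le_normalizer hNS).mpr hSN
  have hcardQ : Nat.card (↥S ⧸ N.subgroupOf S) = r := by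
    rw [← Subgroup.index_eq_card]; exact hidx
  haveI : Fact r.Prime := ⟨hr⟩
  haveI hcyc : IsCyclic (↥S ⧸ N.subgroupOf S) := isCyclic_of_prime_card hcardQ
  letI : CommGroup (↥S ⧸ N.subgroupOf S) := IsCyclic.commGroup
  have key := avg_core S V hVS (QuotientGroup.mk' (N.subgroupOf S)) x hxS hVx hEq
  have hr' : (QuotientGroup.mk' (N.subgroupOf S) ⟨x, hxS⟩) ^ r = 1 := by
    rw [← hcardQ]; exact pow_card_eq_one'
  have h1 : QuotientGroup.mk' (N.subgroupOf S) ⟨x, hxS⟩ = 1 := by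
    have h2 := orderOf_dvd_of_pow_eq_one key
    have h3 := orderOf_dvd_of_pow_eq_one hr'
    have h4 : orderOf (QuotientGroup.mk' (N.subgroupOf S) ⟨x, hxS⟩) ∣ 1 := by
      have h5 := Nat.dvd_gcd h2 h3
      rwa [Nat.Coprime.gcd_eq_one hcop] at h5
    exact orderOf_eq_one_iff.mp (Nat.dvd_one.mp h4)
  have h6 : (⟨x, hxS⟩ : ↥S) ∈ N.subgroupOf S := by
    rwa [QuotientGroup.mk'_apply, QuotientGroup.eq_one_iff] at h1
  exact hxN (Subgroup.mem_subgroupOf.mp h6)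

end Cfsg.Agent.Lib.Helper4.S53AVG
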