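import Mathlib
import Cfsg.Agent.Lib.Helper55.S53Stmt

set_option autoImplicit false

namespace Cfsg.Agent.Lib.Helper4.S53PRIME

universe u

private theorem exists_prime_pow {G : Type u} [Group G] [Finite G] (k : G) (hk : k ≠ 1) :
    ∃ n : ℕ, (orderOf (k ^ n)).Prime := by
  have h1 : orderOf k ≠ 1 := fun h => hk (orderOf_eq_one_iff.mp h)
  have h0 : orderOf k ≠ 0 := (orderOf_pos k).ne'
  have hp : (orderOf k).minFac.Prime := Nat.minFac_prime h1
  refine ⟨orderOf k / (orderOf k).minFac, ?_⟩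
  rw [orderOf_pow_orderOf_div h0 (Nat.minFac_dvd _)]
  exact hp

theorem main : Cfsg.Agent.Lib.Helper55.S53Stmt.PrimeRed.{u} := by
  intro G _ _ K U k u hkK hk huU hu hcomm
  obtain ⟨n, hn⟩ := exists_prime_pow k hk
  obtain ⟨m, hm⟩ := exists_prime_pow u hu
  refine ⟨k ^ n, K.pow_mem hkK n, u ^ m, U.pow_mem huU m, hn, hm, ?_⟩
  have hc : Commute k u := hcomm
  exact (hc.pow_pow n m)

end Cfsg.Agent.Lib.Helper4.S53PRIME
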