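import Mathlib
import Cfsg.Agent.Lib.Helper44.TPStmt
import Cfsg.Agent.Lib.Helper44.NegPairs

/-!
# S5973 piece FRFIB (call by helper44): totally singular frames of the plus form fibre over
their spans (port of `Helper4.TSFRFIB`, no parity hypothesis)
-/

set_option autoImplicit false

namespace Cfsg.Agent.Lib.Helper4.TPFRFIB

open Cfsg.Agent.Lib.Helper44.TPStmt
open Cfsg.Agent.Lib.Helper44.NegPairs (plusQ)

universe u

/-- the span of a totally singular frame is totally singular -/
theorem span_ts {F : Type u} [Field F] {d j : ℕ} (v : Fin j → J d → F)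
    (hs : ∀ a, Cfsg.quadFormPlus d F (v a) = 0)
    (hp : ∀ a b, QuadraticMap.polar (Cfsg.quadFormPlus d F) (v a) (v b) = 0) :
    ∀ w ∈ Submodule.span F (Set.range v), Cfsg.quadFormPlus d F w = 0 := by
  have hB : ∀ x y, QuadraticMap.polarBilin (plusQ d F) x y =
      QuadraticMap.polar (Cfsg.quadFormPlus d F) x y := fun x y => rfl
  have h1 : ∀ w ∈ Submodule.span F (Set.range v), ∀ a,
      QuadraticMap.polarBilin (plusQ d F) (v a) w = 0 := by
    intro w hw a
    induction hw using Submodule.span_induction with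
    | mem x hx =>
      obtain ⟨b, rfl⟩ := hx
      rw [hB]
      exact hp a b
    | zero => simp
    | add x y _ _ hx hy => rw [map_add, hx, hy, add_zero]
    | smul c x _ hx => rw [map_smul, hx, smul_zero]
  have h2 : ∀ w' ∈ Submodule.span F (Set.range v), ∀ w ∈ Submodule.span F (Set.range v),
      QuadraticMap.polarBilin (plusQ d F) w' w = 0 := by
    intro w' hw' w hw
    induction hw' using Submodule.span_induction with
    | mem x hx =>
      obtain ⟨b, rfl⟩ := hx
      exact h1 w hw b
    | zero => simp
    | add x y _ _ hx hy => rw [map_add, LinearMap.add_apply, hx, hy, add_zero]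
    | smul c x _ hx => rw [map_smul, LinearMap.smul_apply, hx, smul_zero]
  intro w hw
  have h3 : plusQ d F w = 0 := by
    induction hw using Submodule.span_induction with
    | mem x hx =>
      obtain ⟨b, rfl⟩ := hx
      exact hs b
    | zero => simp
    | add x y hx hy hx0 hy0 =>
      have h := h2 x hx y hy
      rw [hB] at h
      have h' : QuadraticMap.polar (⇑(plusQ d F)) x y = 0 := h
      rw [QuadraticMap.map_add (⇑(plusQ d F)) x y, hx0, hy0, h']
      simp
    | smul c x _ hx => rw [QuadraticMap.map_smul, hx, smul_zero]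
  exact h3

/-- a linearly independent `m`-tuple in an `m`-dimensional subspace spans it -/
theorem span_eq {F : Type u} [Field F] {d m : ℕ} (W : Submodule F (J d → F))
    (hW : Module.finrank F ↥W = m) (s : Fin m → ↥W) (hs : LinearIndependent F s) :
    Submodule.span F (Set.range (fun a => ((s a : ↥W) : J d → F))) = W := by
  have hli : LinearIndependent F (fun a => ((s a : ↥W) : J d → F)) :=
    hs.map' W.subtype (Submodule.ker_subtype W)
  apply Submodule.eq_of_le_of_finrank_eq
  · rw [Submodule.span_le]
    rintro _ ⟨a, rfl⟩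
    exact (s a).2
  · rw [finrank_span_eq_card hli, Fintype.card_fin, hW]

theorem main : Cfsg.Agent.Lib.Helper44.TPStmt.FrFib.{u} := by
  intro F _ _ d m
  classical
  have hfinV : Finite (J d → F) := inferInstance
  have hfinS : Finite (Submodule F (J d → F)) := inferInstance
  let TS : Type u := {W : Submodule F (J d → F) //
    Module.finrank F ↥W = m ∧ (∀ w ∈ W, Cfsg.quadFormPlus d F w = 0)}
  have hTSfin : Fintype TS := Fintype.ofFinite TS
  let g : (Σ W : TS, {s : Fin m → ↥W.1 // LinearIndependent F s}) → TFr d F m := fun p =>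
    ⟨fun a => ((p.2.1 a : ↥p.1.1) : J d → F),
      p.2.2.map' p.1.1.subtype (Submodule.ker_subtype p.1.1),
      fun a => p.1.2.2 _ (p.2.1 a).2,
      fun a b => by
        have h1 := p.1.2.2 _ (p.2.1 a).2
        have h2 := p.1.2.2 _ (p.2.1 b).2
        have h3 := p.1.2.2 _ (p.1.1.add_mem (p.2.1 a).2 (p.2.1 b).2)
        simp only [QuadraticMap.polar, h1, h2, h3, sub_zero]⟩
  have hg : ∀ p, (g p).1 = fun a => ((p.2.1 a : ↥p.1.1) : J d → F) := fun p => rfl
  have hinj : Function.Injective g := by
    rintro ⟨⟨W, hW⟩, ⟨s, hs⟩⟩ ⟨⟨W', hW'⟩, ⟨s', hs'⟩⟩ h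
    have h' : (fun a => ((s a : ↥W) : J d → F)) = (fun a => ((s' a : ↥W') : J d → F)) :=
      congrArg Subtype.val h
    have hWW : W = W' := by
      rw [← span_eq W hW.1 s hs, ← span_eq W' hW'.1 s' hs', h']
    subst hWW
    have hss : s = s' := funext fun a => Subtype.ext (congrFun h' a)
    subst hss
    rfl
  have hsurj : Function.Surjective g := by
    intro v
    refine ⟨⟨⟨Submodule.span F (Set.range v.1), ?_, span_ts v.1 v.2.2.1 v.2.2.2⟩,
      ⟨fun a => ⟨v.1 a, Submodule.subset_span (Set.mem_range_self a)⟩, ?_⟩⟩, ?_⟩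
    · rw [finrank_span_eq_card v.2.1, Fintype.card_fin]
    · exact LinearIndependent.of_comp (Submodule.span F (Set.range v.1)).subtype v.2.1
    · apply Subtype.ext
      rfl
  have hcard : Nat.card (TFr d F m) =
      Nat.card (Σ W : TS, {s : Fin m → ↥W.1 // LinearIndependent F s}) :=
    (Nat.card_congr (Equiv.ofBijective g ⟨hinj, hsurj⟩)).symm
  rw [hcard, Nat.card_sigma]
  have hterm : ∀ W : TS, Nat.card {s : Fin m → ↥W.1 // LinearIndependent F s} =
      ∏ j ∈ Finset.range m, (Fintype.card F ^ m - Fintype.card F ^ j) := by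
    intro W
    rw [card_linearIndependent (K := F) (V := ↥W.1) (k := m) (le_of_eq W.2.1.symm), W.2.1]
    exact Fin.prod_univ_eq_prod_range
      (fun j => Fintype.card F ^ m - Fintype.card F ^ j) m
  rw [Finset.sum_congr rfl (fun W _ => hterm W), Finset.sum_const, Finset.card_univ,
    smul_eq_mul]
  congr 1
  unfold NTS
  rw [Nat.card_eq_fintype_card]

end Cfsg.Agent.Lib.Helper4.TPFRFIB
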