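import Mathlib
import Cfsg.Agent.Lib.Helper44.TSStmt
import Cfsg.Agent.Lib.Helper29.HypDIMOBS

/-!
# S5972 piece FREXT: extending totally singular frames by one vector
-/

set_option autoImplicit false

namespace Cfsg.Agent.Lib.Helper4.TSFREXT

open Cfsg.Agent.Lib.Helper37.HypStmt Cfsg.Agent.Lib.Helper37.HypStmt2
open Cfsg.Agent.Lib.Helper44.TSStmt Cfsg.Agent.Lib.Helper29.HypDIMOBS

universe u

/-- the span of a totally singular frame is totally singular and orthogonal to the frame -/
theorem span_sub {F : Type u} [Field F] {d j : ℕ} (v : Fin j → I d → F)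
    (hs : ∀ a, Cfsg.quadFormOdd d F (v a) = 0)
    (hp : ∀ a b, QuadraticMap.polar (Cfsg.quadFormOdd d F) (v a) (v b) = 0) :
    ∀ w ∈ Submodule.span F (Set.range v), Cfsg.quadFormOdd d F w = 0 ∧
      ∀ a, QuadraticMap.polar (Cfsg.quadFormOdd d F) (v a) w = 0 := by
  have hB : ∀ x y, QuadraticMap.polarBilin (oddQ d F) x y =
      QuadraticMap.polar (Cfsg.quadFormOdd d F) x y := fun x y => rfl
  have h1 : ∀ w ∈ Submodule.span F (Set.range v), ∀ a,
      QuadraticMap.polarBilin (oddQ d F) (v a) w = 0 := by
    intro w hw a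
    induction hw using Submodule.span_induction with
    | mem x hx =>
      obtain ⟨b, rfl⟩ := hx
      rw [hB]
      exact hp a b
    | zero => simp
    | add x y _ _ hx hy => rw [map_add, hx, hy, add_zero]
    | smul c x _ hx => rw [map_smul, hx, smul_zero]
  have h2 : ∀ w' ∈ Submodule.span F (Set.range v), ∀ w ∈ Submodule.span F (Set.range v),
      QuadraticMap.polarBilin (oddQ d F) w' w = 0 := by
    intro w' hw' w hw
    induction hw' using Submodule.span_induction with
    | mem x hx =>
      obtain ⟨b, rfl⟩ := hx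
      exact h1 w hw b
    | zero => simp
    | add x y _ _ hx hy => rw [map_add, LinearMap.add_apply, hx, hy, add_zero]
    | smul c x _ hx => rw [map_smul, LinearMap.smul_apply, hx, smul_zero]
  intro w hw
  have h3 : oddQ d F w = 0 := by
    induction hw using Submodule.span_induction with
    | mem x hx =>
      obtain ⟨b, rfl⟩ := hx
      exact hs b
    | zero => simp
    | add x y hx hy hx0 hy0 =>
      have h := h2 x hx y hy
      rw [hB] at h
      have h' : QuadraticMap.polar (⇑(oddQ d F)) x y = 0 := h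
      rw [QuadraticMap.map_add (⇑(oddQ d F)) x y, hx0, hy0, h']
      simp
    | smul c x _ hx => rw [QuadraticMap.map_smul, hx, smul_zero]
  refine ⟨h3, fun a => ?_⟩
  have h := h1 w hw a
  rw [hB] at h
  exact h

theorem main (hSC : SingCnt.{u}) : Cfsg.Agent.Lib.Helper44.TSStmt.FrExt.{u} := by
  intro F _ _ hodd d j hjd
  classical
  have hfinV : Finite (I d → F) := inferInstance
  have hfinT : Finite (TFr d F j) := by
    unfold TFr
    infer_instance
  have hTfin : Fintype (TFr d F j) := Fintype.ofFinite _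
  -- the extension map
  let h : (Σ v : TFr d F j, {u : I d → F // Cfsg.quadFormOdd d F u = 0 ∧
      (∀ a, QuadraticMap.polar (Cfsg.quadFormOdd d F) (v.1 a) u = 0) ∧
      u ∉ Submodule.span F (Set.range v.1)}) → TFr d F (j + 1) := fun p =>
    ⟨Fin.snoc (α := fun _ => I d → F) p.1.1 p.2.1,
      LinearIndependent.finSnoc p.1.2.1 p.2.2.2.2,
      fun a => by
        refine Fin.lastCases ?_ (fun b => ?_) a
        · rw [Fin.snoc_last]
          exact p.2.2.1
        · rw [Fin.snoc_castSucc]
          exact p.1.2.2.1 b,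
      fun a b => by
        refine Fin.lastCases ?_ (fun a' => ?_) a
        · refine Fin.lastCases ?_ (fun b' => ?_) b
          · rw [Fin.snoc_last]
            have h1 : QuadraticMap.polar (⇑(oddQ d F)) p.2.1 p.2.1 = 2 • oddQ d F p.2.1 :=
              QuadraticMap.polar_self (oddQ d F) p.2.1
            have h2 : oddQ d F p.2.1 = 0 := p.2.2.1
            rw [h2, smul_zero] at h1
            exact h1
          · rw [Fin.snoc_last, Fin.snoc_castSucc, QuadraticMap.polar_comm]
            exact p.2.2.2.1 b'
        · refine Fin.lastCases ?_ (fun b' => ?_) b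
          · rw [Fin.snoc_last, Fin.snoc_castSucc]
            exact p.2.2.2.1 a'
          · rw [Fin.snoc_castSucc, Fin.snoc_castSucc]
            exact p.1.2.2.2 a' b'⟩
  have hinj : Function.Injective h := by
    rintro ⟨⟨v, hv⟩, ⟨u, hu⟩⟩ ⟨⟨v', hv'⟩, ⟨u', hu'⟩⟩ heq
    have h' : Fin.snoc (α := fun _ => I d → F) v u = Fin.snoc (α := fun _ => I d → F) v' u' :=
      congrArg Subtype.val heq
    have hvv : v = v' := by
      have h1 := congrArg (Fin.init (α := fun _ => I d → F)) h'
      rw [Fin.init_snoc, Fin.init_snoc] at h1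
      exact h1
    subst hvv
    have huu : u = u' := by
      have h1 := congrFun h' (Fin.last j)
      rw [Fin.snoc_last, Fin.snoc_last] at h1
      exact h1
    subst huu
    rfl
  have hsurj : Function.Surjective h := by
    intro w
    have hli := linearIndependent_finSucc'.1 w.2.1
    refine ⟨⟨⟨Fin.init (α := fun _ => I d → F) w.1, hli.1, fun a => w.2.2.1 a.castSucc,
      fun a b => w.2.2.2 a.castSucc b.castSucc⟩,
      ⟨w.1 (Fin.last j), w.2.2.1 _, fun a => w.2.2.2 a.castSucc (Fin.last j), hli.2⟩⟩, ?_⟩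
    apply Subtype.ext
    exact Fin.snoc_init_self w.1
  have hcard : Nat.card (TFr d F (j + 1)) =
      Nat.card (Σ v : TFr d F j, {u : I d → F // Cfsg.quadFormOdd d F u = 0 ∧
        (∀ a, QuadraticMap.polar (Cfsg.quadFormOdd d F) (v.1 a) u = 0) ∧
        u ∉ Submodule.span F (Set.range v.1)}) :=
    (Nat.card_congr (Equiv.ofBijective h ⟨hinj, hsurj⟩)).symm
  rw [hcard, Nat.card_sigma]
  have hterm : ∀ v : TFr d F j, Nat.card {u : I d → F // Cfsg.quadFormOdd d F u = 0 ∧
      (∀ a, QuadraticMap.polar (Cfsg.quadFormOdd d F) (v.1 a) u = 0) ∧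
      u ∉ Submodule.span F (Set.range v.1)} =
      Fintype.card F ^ j * (Fintype.card F ^ (2 * (d - j)) - 1) := by
    intro v
    have hA := hSC F hodd d j hjd.le v
    have hA' : ({u : I d → F | Cfsg.quadFormOdd d F u = 0 ∧
        ∀ a, QuadraticMap.polar (Cfsg.quadFormOdd d F) (v.1 a) u = 0}).ncard =
        Fintype.card F ^ (2 * d - j) := by
      rw [← hA]
      exact (Nat.card_coe_set_eq _).symm
    have hS : ((Submodule.span F (Set.range v.1) : Submodule F (I d → F)) :
        Set (I d → F)).ncard = Fintype.card F ^ j := by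
      rw [← Nat.card_coe_set_eq]
      have h1 := Module.natCard_eq_pow_finrank (K := F)
        (V := ↥(Submodule.span F (Set.range v.1)))
      rw [finrank_span_eq_card v.2.1, Fintype.card_fin, Nat.card_eq_fintype_card (α := F)] at h1
      exact h1
    have hsub : ((Submodule.span F (Set.range v.1) : Submodule F (I d → F)) :
        Set (I d → F)) ⊆ {u : I d → F | Cfsg.quadFormOdd d F u = 0 ∧
        ∀ a, QuadraticMap.polar (Cfsg.quadFormOdd d F) (v.1 a) u = 0} :=
      fun w hw => span_sub v.1 v.2.2.1 v.2.2.2 w hw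
    have hB : Nat.card {u : I d → F // Cfsg.quadFormOdd d F u = 0 ∧
        (∀ a, QuadraticMap.polar (Cfsg.quadFormOdd d F) (v.1 a) u = 0) ∧
        u ∉ Submodule.span F (Set.range v.1)} =
        ({u : I d → F | Cfsg.quadFormOdd d F u = 0 ∧
          ∀ a, QuadraticMap.polar (Cfsg.quadFormOdd d F) (v.1 a) u = 0} \
          ((Submodule.span F (Set.range v.1) : Submodule F (I d → F)) : Set (I d → F))).ncard := by
      rw [← Nat.card_coe_set_eq]
      apply Nat.card_congr
      exact Equiv.subtypeEquivRight (fun u => by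
        simp only [Set.mem_sdiff, Set.mem_ofPred_eq, SetLike.mem_coe]
        tauto)
    rw [hB, Set.ncard_sdiff hsub, hA', hS]
    have e : 2 * d - j = j + 2 * (d - j) := by omega
    rw [e, pow_add, Nat.mul_sub_one]
  rw [Finset.sum_congr rfl (fun v _ => hterm v), Finset.sum_const, Finset.card_univ,
    smul_eq_mul, Nat.card_eq_fintype_card]

end Cfsg.Agent.Lib.Helper4.TSFREXT
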